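import Cfsg.Agent.Lib.SchurCover.Heis
import Cfsg.Agent.Lib.CoprimeAction.Abelian

set_option autoImplicit false

/-!
A finite abelian group has trivial multiplier iff it is cyclic.
-/

namespace CfsgLib.SchurCover

open scoped commutatorElement

universe u

theorem M0_cyclic {G : Type u} [Group G] [Finite G] [IsCyclic G] : M0 G = ⊥ := by
  obtain ⟨a, ha⟩ := IsCyclic.exists_generator (α := G)
  have h : MetaGens a (1 : G) (orderOf a) 1 0 0 :=
    { gen := by
        rw [eq_top_iff]
        intro q _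
        have : q ∈ Subgroup.zpowers a := ha q
        rw [Subgroup.zpowers_eq_closure] at this
        exact Subgroup.closure_mono (by simp) this
      pow_a := pow_orderOf_eq_one a
      pow_b := by simp
      conj := by simp }
  obtain ⟨-, h2⟩ := M0_metacyclic h 1 1 (fun k _ => one_dvd k) (by simp)
  exact Subgroup.card_eq_one.1 (Nat.dvd_one.1 h2)

theorem exists_hom_prod (p : ℕ) [Fact p.Prime] {V : Type u} [AddCommGroup V] [Finite V]
    (hV : ∀ x : V, p • x = 0) (hcard : p < Nat.card V) :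
    ∃ L : V →+ ZMod p × ZMod p, Function.Surjective L := by
  have := AddCommGroup.zmodModule hV
  revert this
  intro inst
  have : Module.Finite (ZMod p) V := Module.Finite.of_finite
  have hr : 1 < Module.finrank (ZMod p) V := by
    by_contra hh
    push Not at hh
    rw [Module.natCard_eq_pow_finrank (K := ZMod p), Nat.card_zmod] at hcard
    have h2 := Nat.pow_le_pow_right (Fact.out : p.Prime).pos hh
    rw [pow_one] at h2
    omega
  let b := Module.finBasis (ZMod p) V
  obtain ⟨i, j, hij⟩ : ∃ i j : Fin (Module.finrank (ZMod p) V), i ≠ j :=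
    ⟨⟨0, by omega⟩, ⟨1, hr⟩, by simp [Fin.ext_iff]⟩
  refine ⟨((b.coord i).prod (b.coord j)).toAddMonoidHom, fun v => ⟨v.1 • b i + v.2 • b j, ?_⟩⟩
  simp [hij, hij.symm]

/-- A noncyclic finite abelian group maps onto `ZMod p × ZMod p` for some prime `p`. -/
theorem exists_surjective_prod {G : Type u} [CommGroup G] [Finite G] (hG : ¬ IsCyclic G) :
    ∃ (p : ℕ) (_ : Fact p.Prime) (f : G →* Multiplicative (ZMod p × ZMod p)),
      Function.Surjective f := by
  obtain ⟨p, hp, hcard⟩ : ∃ p : ℕ, p.Prime ∧ p < Nat.card (powMonoidHom p : G →* G).ker := by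
    by_contra hh
    push Not at hh
    exact hG (CoprimeAction.isCyclic_of_prime_roots hh)
  have := Fact.mk hp
  let W := (powMonoidHom p : G →* G).range
  have hW : p < Nat.card (G ⧸ W) := by
    rwa [← Subgroup.index_eq_card, Subgroup.index_range]
  obtain ⟨L, hL⟩ := exists_hom_prod p (V := Additive (G ⧸ W)) (fun x => by
    obtain ⟨g, hg⟩ := QuotientGroup.mk_surjective (Additive.toMul x)
    have : (Additive.toMul x) ^ p = 1 := by
      rw [← hg, ← QuotientGroup.mk_pow, QuotientGroup.eq_one_iff]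
      exact ⟨g, rfl⟩
    exact congrArg Additive.ofMul this) (by
      rwa [Nat.card_congr (Additive.toMul : Additive (G ⧸ W) ≃ G ⧸ W)])
  refine ⟨p, ⟨hp⟩, (AddMonoidHom.toMultiplicativeRight L).comp (QuotientGroup.mk' W),
    fun y => ?_⟩
  obtain ⟨v, hv⟩ := hL (Multiplicative.toAdd y)
  obtain ⟨g, hg⟩ := QuotientGroup.mk'_surjective W (Additive.toMul v)
  refine ⟨g, ?_⟩
  rw [MonoidHom.comp_apply, hg]
  exact congrArg Multiplicative.ofAdd hv

/-- Pulling a stem extension back along a map of an abelian group onto the quotient. -/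
theorem card_ker_dvd_of_surjective {G : Type u} [CommGroup G] [Finite G] {Q H : Type*} [Group Q]
    [Group H] (f : G →* Q) (hf : Function.Surjective f) (τ : H →* Q)
    (hτ : Cfsg.IsStemExtension τ) : Nat.card τ.ker ∣ Nat.card (M0 G) := by
  let Γ : Subgroup (G × H) :=
    MonoidHom.eqLocus (f.comp (MonoidHom.fst G H)) (τ.comp (MonoidHom.snd G H))
  let σ : Γ →* G := (MonoidHom.fst G H).comp Γ.subtype
  have hmem : ∀ {g : G} {h : H}, f g = τ h → (g, h) ∈ Γ := fun h => h
  have hker : ∀ {x : Γ}, x ∈ σ.ker → x.1.1 = 1 ∧ x.1.2 ∈ τ.ker := fun {x} hx => by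
    have h1 : x.1.1 = 1 := hx
    have h2 : f x.1.1 = τ x.1.2 := x.2
    rw [h1, map_one] at h2
    exact ⟨h1, h2.symm⟩
  have hσ : Cfsg.IsStemExtension σ := by
    refine ⟨fun g => ?_, fun x hx => ?_, fun x hx => ?_⟩
    · obtain ⟨h, hh⟩ := hτ.1 (f g)
      exact ⟨⟨(g, h), hmem hh.symm⟩, rfl⟩
    · obtain ⟨h1, h2⟩ := hker hx
      refine Subgroup.mem_center_iff.2 fun y => Subtype.ext (Prod.ext ?_ ?_)
      · simp [h1]
      · exact Subgroup.mem_center_iff.1 (hτ.2.1 h2) y.1.2
    · obtain ⟨h1, h2⟩ := hker hx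
      let π : Γ →* H := (MonoidHom.snd G H).comp Γ.subtype
      have hle : commutator H ≤ (commutator Γ).map π := by
        rw [commutator_eq_closure, Subgroup.closure_le]
        rintro _ ⟨a, b, rfl⟩
        obtain ⟨a', ha'⟩ := hf (τ a)
        obtain ⟨b', hb'⟩ := hf (τ b)
        exact ⟨⁅(⟨(a', a), hmem ha'⟩ : Γ), ⟨(b', b), hmem hb'⟩⁆,
          Subgroup.commutator_mem_commutator (Subgroup.mem_top _) (Subgroup.mem_top _), rfl⟩
      obtain ⟨w, hw, hwx⟩ := hle (hτ.2.2 h2)
      have hw1 : σ w = 1 := (Abelianization.commutator_subset_ker σ hw : w ∈ σ.ker)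
      have : w = x := Subtype.ext (Prod.ext (hw1.trans h1.symm) hwx)
      exact this ▸ hw
  let e : τ.ker →* σ.ker :=
    { toFun := fun h => ⟨⟨(1, h.1), hmem (by rw [map_one]; exact h.2.symm)⟩, rfl⟩
      map_one' := rfl
      map_mul' := fun a b => Subtype.ext (Subtype.ext (Prod.ext (one_mul 1).symm rfl)) }
  have he : Function.Injective e := fun a b h => Subtype.ext
    (congrArg (fun x : σ.ker => x.1.1.2) h)
  exact (Subgroup.card_dvd_of_injective e he).trans (card_ker_dvd σ hσ)

theorem M0_eq_bot_iff {G : Type u} [CommGroup G] [Finite G] : M0 G = ⊥ ↔ IsCyclic G := by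
  refine ⟨fun h => ?_, fun _ => M0_cyclic⟩
  by_contra hG
  obtain ⟨p, hp, f, hf⟩ := exists_surjective_prod hG
  have := card_ker_dvd_of_surjective f hf (Heis.toProd p p dvd_rfl) (Heis.isStem p p dvd_rfl)
  rw [Nat.card_congr (Heis.kerEquiv p p dvd_rfl).toEquiv, Nat.card_congr Multiplicative.toAdd,
    Nat.card_zmod, h, Subgroup.card_bot, Nat.dvd_one] at this
  exact hp.out.ne_one this

end CfsgLib.SchurCover
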