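import Cfsg.Agent.Lib.SchurCover.Basic

set_option autoImplicit false

/-!
Covers dominating a given stem extension, kernels of stem extensions of covers, lifting into
extensions by divisible groups, universal perfect covers.
-/

namespace CfsgLib.SchurCover

open scoped commutatorElement

universe u v w

variable {Q : Type u} [Group Q]

/-- Every stem extension is an image of a Schur cover. -/
theorem exists_cover_over [Finite Q] {Δ : Type v} [Group Δ] (τ : Δ →* Q)
    (hτ : Cfsg.IsStemExtension τ) :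
    ∃ (Γ : Type u) (_ : Group Γ) (_ : Finite Γ) (σ : Γ →* Q) (f : Univ Q →* Γ)
      (hf : σ.comp f = proj Q) (β : Γ →* Δ),
      Cfsg.IsStemExtension σ ∧ Function.Bijective (kerMap σ f hf) ∧ Function.Surjective f ∧
        Function.Surjective β ∧ τ.comp β = σ := by
  obtain ⟨g, hg⟩ := exists_lift τ hτ.1 hτ.2.1
  obtain ⟨C, hC, hCD, hsup, hCg⟩ := exists_complement_le g (by
    rw [stem_lift_M0 τ hτ g hg, Subgroup.map_le_iff_le_comap, MonoidHom.comap_ker, hg])
  have hN : C.Normal := ⟨fun c hc g => by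
    rw [Subgroup.mem_center_iff.1 (ker_proj_le_center (hC hc)) g]; simpa using hc⟩
  let σ : Univ Q ⧸ C →* Q := QuotientGroup.lift C (proj Q) hC
  let f := QuotientGroup.mk' C
  let β : Univ Q ⧸ C →* Δ := QuotientGroup.lift C g hCg
  have hf : σ.comp f = proj Q := by ext x; rfl
  have hker : σ.ker = (proj Q).ker.map f := QuotientGroup.ker_lift _ _ _
  have hst : Cfsg.IsStemExtension σ := by
    refine ⟨fun q => ⟨f (sec q), proj_sec q⟩, ?_, ?_⟩
    · rw [hker]
      rintro _ ⟨r, hr, rfl⟩
      refine Subgroup.mem_center_iff.2 fun y => ?_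
      obtain ⟨y, rfl⟩ := QuotientGroup.mk'_surjective C y
      rw [← map_mul, ← map_mul, Subgroup.mem_center_iff.1 (ker_proj_le_center hr)]
    · rw [hker]
      refine (Subgroup.map_mono hsup).trans ?_
      rw [Subgroup.map_sup, sup_le_iff]
      refine ⟨?_, ?_⟩
      · rintro _ ⟨c, hc, rfl⟩
        have : f c = 1 := (QuotientGroup.eq_one_iff _).2 hc
        simp [this]
      · refine (Subgroup.map_mono inf_le_right).trans ?_
        rw [map_commutator_eq]
        exact Subgroup.commutator_mono le_top le_top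
  have hfin : Finite (Univ Q ⧸ C) := by
    refine Finite.of_surjective (fun p : Q × M0 Q => f (sec p.1 * p.2)) fun y => ?_
    obtain ⟨x, rfl⟩ := QuotientGroup.mk'_surjective C y
    have hr : (sec (proj Q x))⁻¹ * x ∈ (proj Q).ker := by simp
    obtain ⟨c, hc, m, hm, hcm⟩ := Subgroup.mem_sup_of_normal_left.1 (hsup hr)
    refine ⟨(proj Q x, ⟨m, hm⟩), ?_⟩
    have h1 : f c = 1 := (QuotientGroup.eq_one_iff _).2 hc
    have h2 := congrArg f hcm
    rw [map_mul, h1, one_mul, map_mul, map_inv] at h2
    show f (sec (proj Q x) * m) = f x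
    rw [map_mul, h2, mul_inv_cancel_left]
  have hβ : τ.comp β = σ := QuotientGroup.monoidHom_ext _
    (MonoidHom.ext fun x => DFunLike.congr_fun hg x)
  refine ⟨Univ Q ⧸ C, inferInstance, hfin, σ, f, hf, β, hst, ⟨?_, kerMap_surjective σ hst f hf⟩,
    QuotientGroup.mk'_surjective C,
    stem_lift_surjective τ hτ β (by rw [hβ]; exact hst.1), hβ⟩
  rw [← MonoidHom.ker_eq_bot_iff, eq_bot_iff]
  intro x hx
  have h1 : (x : Univ Q) ∈ C := (QuotientGroup.eq_one_iff _).1 (Subtype.ext_iff.1 hx)
  have : (x : Univ Q) ∈ C ⊓ commutator (Univ Q) := ⟨h1, x.2.2⟩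
  rw [hCD] at this
  exact Subtype.ext this

/-- A stem extension of a stem extension with central composite kernel: the upper kernel. -/
theorem isStem_of_comp {Γ' : Type v} {Γ : Type w} [Group Γ'] [Group Γ] (σ : Γ →* Q)
    (β : Γ' →* Γ) (hβ : Function.Surjective β) (h : Cfsg.IsStemExtension (σ.comp β)) :
    Cfsg.IsStemExtension β := by
  have hle : β.ker ≤ (σ.comp β).ker := fun x hx => by
    rw [MonoidHom.mem_ker, MonoidHom.comp_apply, MonoidHom.mem_ker.1 hx, map_one]
  exact ⟨hβ, hle.trans h.2.1, hle.trans h.2.2⟩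

/-- If `Γ` has trivial multiplier, a stem extension `Γ →* Q` is a Schur cover. -/
theorem kerMap_bijective_of_trivial [Finite Q] {Γ : Type v} [Group Γ] (σ : Γ →* Q)
    (hσ : Cfsg.IsStemExtension σ) (hΓ : M0 Γ = ⊥) :
    ∀ (f : Univ Q →* Γ) (hf : σ.comp f = proj Q), Function.Bijective (kerMap σ f hf) := by
  intro f hf
  obtain ⟨Γ', i₁, i₂, σ', f', hf', β, hσ', hb, -, hβ, hcomp⟩ := exists_cover_over σ hσ
  obtain ⟨π, hπ⟩ := exists_kerMap β (isStem_of_comp σ β hβ (hcomp ▸ hσ'))
  have hk : β.ker = ⊥ := by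
    have : Subsingleton (M0 Γ) := by rw [hΓ]; infer_instance
    have := hπ.subsingleton
    exact (Subgroup.eq_bot_iff_forall _).2 fun x hx =>
      congrArg Subtype.val (Subsingleton.elim (⟨x, hx⟩ : β.ker) 1)
  let e : Γ' ≃* Γ := MulEquiv.ofBijective β ⟨(MonoidHom.ker_eq_bot_iff β).1 hk, hβ⟩
  have : Finite Γ := Finite.of_equiv _ e.toEquiv
  have hc : Nat.card σ'.ker = Nat.card σ.ker := by
    refine Nat.card_congr (e.toEquiv.subtypeEquiv fun x => ?_)
    show σ' x = 1 ↔ σ (β x) = 1
    rw [← hcomp]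
    rfl
  exact (Nat.bijective_iff_surjective_and_card _).2
    ⟨kerMap_surjective σ hσ f hf, (Nat.card_congr (Equiv.ofBijective _ hb)).trans hc⟩

/-- A homomorphism on a subgroup of `R/[R,F]` meeting the commutator trivially extends to
`F/[R,F]`, for divisible abelian values. -/
theorem exists_extension {A : Type v} [CommGroup A]
    (hA : ∀ (n : ℕ), n ≠ 0 → ∀ a : A, ∃ b : A, b ^ n = a)
    (C : Subgroup (Univ Q)) (hC : C ⊓ commutator (Univ Q) = ⊥) (φ : C →* A) :
    ∃ μ : Univ Q →* A, ∀ c : C, μ c = φ c := by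
  have hinj : Function.Injective ((expSum Q).comp C.subtype) := by
    rw [← MonoidHom.ker_eq_bot_iff, eq_bot_iff]
    intro x hx
    have h1 : (x : Univ Q) ∈ commutator (Univ Q) := by rw [← expSum_ker]; exact hx
    have : (x : Univ Q) ∈ C ⊓ commutator (Univ Q) := ⟨x.2, h1⟩
    rw [hC] at this
    exact Subtype.ext this
  let : CommGroup C :=
    { (inferInstance : Group C) with
      mul_comm := fun a b => hinj (by rw [map_mul, map_mul, mul_comm]) }
  let : RootableBy A ℕ := rootableByOfPowLeftSurj A ℕ fun {n} hn a => hA n hn a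
  let : RootableBy A ℤ := Group.rootableByIntOfRootableByNat A
  let : DivisibleBy (Additive A) ℤ :=
    { div := fun a n => Additive.ofMul (RootableBy.root (Additive.toMul a) n)
      div_zero := fun a => congrArg Additive.ofMul (RootableBy.root_zero _)
      div_cancel := fun {n} a hn => congrArg Additive.ofMul (RootableBy.root_cancel _ hn) }
  obtain ⟨h, hh⟩ := (Module.Baer.of_divisible (Additive A)).extension_property_addMonoidHom
    (MonoidHom.toAdditiveLeft ((expSum Q).comp C.subtype))
    (fun a b hab => Additive.toMul.injective (hinj (Multiplicative.toAdd.injective hab)))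
    (MonoidHom.toAdditive φ)
  refine ⟨(AddMonoidHom.toMultiplicativeLeft h).comp (expSum Q), fun c => ?_⟩
  exact congrArg Additive.toMul (DFunLike.congr_fun hh (Additive.ofMul c))

open scoped IsMulCommutative in
/-- Grün's argument: an element commuting with a perfect group modulo the centre is central. -/
theorem mem_center_of_perfect {G : Type v} [Group G] (hG : commutator G = ⊤) (g : G)
    (h : ∀ y : G, g * y * g⁻¹ * y⁻¹ ∈ Subgroup.center G) : g ∈ Subgroup.center G := by
  let φ : G →* Subgroup.center G := MonoidHom.mk' (fun y => ⟨g * y * g⁻¹ * y⁻¹, h y⟩) fun a b => by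
    apply Subtype.ext
    show g * (a * b) * g⁻¹ * (a * b)⁻¹ = g * a * g⁻¹ * a⁻¹ * (g * b * g⁻¹ * b⁻¹)
    have hc := Subgroup.mem_center_iff.1 (h b)
    calc g * (a * b) * g⁻¹ * (a * b)⁻¹
        = g * a * g⁻¹ * ((g * b * g⁻¹ * b⁻¹) * a⁻¹) := by group
      _ = _ := by rw [← hc a⁻¹]; group
  refine Subgroup.mem_center_iff.2 fun x => ?_
  have hx : x ∈ φ.ker := Abelianization.commutator_subset_ker φ (by rw [hG]; trivial)
  have h2 : g * x * g⁻¹ * x⁻¹ = 1 := congrArg Subtype.val (MonoidHom.mem_ker.1 hx)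
  rw [mul_inv_eq_one, mul_inv_eq_iff_eq_mul] at h2
  exact h2.symm

/-- Two homomorphisms from a perfect group agreeing modulo a central kernel are equal. -/
theorem hom_ext_of_perfect {X : Type v} {Γ : Type w} [Group X] [Group Γ]
    (hX : commutator X = ⊤) (σ : Γ →* Q) (hc : σ.ker ≤ Subgroup.center Γ) {f g : X →* Γ}
    (h : σ.comp f = σ.comp g) : f = g :=
  MonoidHom.ext fun x => eq_on_commutator σ hc (DFunLike.congr_fun h) (by rw [hX]; trivial)

theorem isPerfect_commutator_univ (hQ : commutator Q = ⊤) :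
    commutator (commutator (Univ Q)) = ⊤ := by
  let ι := (commutator (Univ Q)).subtype
  have hs : ∀ g : Univ Q, ∃ x, proj Q (ι x) = proj Q g := by
    intro g
    have : proj Q g ∈ (commutator (Univ Q)).map (proj Q) := by
      rw [map_commutator_eq, MonoidHom.range_eq_top.2 proj_surjective, ← commutator_def, hQ]
      trivial
    obtain ⟨x, hx, he⟩ := this
    exact ⟨⟨x, hx⟩, he⟩
  rw [eq_top_iff]
  intro x _
  obtain ⟨y, hy, he⟩ := commutator_le_map (proj Q) ker_proj_le_center ι hs x.2
  have : y = x := Subtype.ext he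
  exact this ▸ hy

end CfsgLib.SchurCover
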