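import Cfsg.Agent.Lib.SchurCover.Heis

set_option autoImplicit false

namespace CfsgLib.SchurCover

theorem metaGens_dihedral (n : ℕ) [NeZero n] :
    MetaGens (DihedralGroup.r 1 : DihedralGroup n) (DihedralGroup.sr 0) n 2 0 (2 * n - 2) where
  gen := by
    rw [eq_top_iff]
    rintro x -
    cases x with
    | r i =>
      obtain ⟨k, rfl⟩ := ZMod.natCast_zmod_surjective (n := n) i
      rw [← DihedralGroup.r_one_pow]
      exact Subgroup.pow_mem _ (Subgroup.subset_closure (by simp)) _
    | sr i =>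
      obtain ⟨k, rfl⟩ := ZMod.natCast_zmod_surjective (n := n) i
      have : (DihedralGroup.sr k : DihedralGroup n) =
          DihedralGroup.sr 0 * DihedralGroup.r 1 ^ k := by
        rw [DihedralGroup.r_one_pow, DihedralGroup.sr_mul_r, zero_add]
      rw [this]
      exact Subgroup.mul_mem _ (Subgroup.subset_closure (by simp))
        (Subgroup.pow_mem _ (Subgroup.subset_closure (by simp)) _)
  pow_a := DihedralGroup.r_one_pow_n
  pow_b := by rw [pow_zero, sq, DihedralGroup.sr_mul_self]
  conj := by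
    rw [mul_inv_eq_iff_eq_mul, DihedralGroup.r_one_pow, DihedralGroup.sr_mul_r,
      DihedralGroup.r_mul_sr]
    congr 1
    have h4 : ((2 * n - 2 + 1 : ℕ) : ZMod n) + 1 = 0 := by
      have : 2 * n - 2 + 1 + 1 = n * 2 := by have := NeZero.pos n; omega
      rw [← Nat.cast_add_one, this, ZMod.natCast_eq_zero_iff]
      exact dvd_mul_right _ _
    linear_combination h4

/-- The multiplier of the dihedral group of order `2 n` is cyclic of order dividing `gcd(n, 2)`. -/
theorem M0_dihedral (n : ℕ) [NeZero n] :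
    IsCyclic (M0 (DihedralGroup n)) ∧ Nat.card (M0 (DihedralGroup n)) ∣ Nat.gcd n 2 := by
  refine M0_metacyclic (metaGens_dihedral n) (n / Nat.gcd n 2) (Nat.gcd n 2) (fun k hk => ?_) ?_
  · rw [← orderOf_dvd_iff_pow_eq_one, DihedralGroup.orderOf_r_one] at hk
    have h2k : n ∣ 2 * k := by
      have h1 : n ∣ (2 * n - 2) * k + 2 * k := by
        rw [← add_mul, Nat.sub_add_cancel (by have := NeZero.pos n; omega)]
        exact (dvd_mul_left n 2).mul_right k
      exact (Nat.dvd_add_right hk).1 h1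
    have hg : 0 < Nat.gcd n 2 := Nat.gcd_pos_of_pos_left 2 (NeZero.pos n)
    refine (Nat.coprime_div_gcd_div_gcd hg).dvd_of_dvd_mul_left ?_
    obtain ⟨c, hc⟩ := h2k
    refine ⟨c, Nat.eq_of_mul_eq_mul_left hg ?_⟩
    rw [← mul_assoc, ← mul_assoc, Nat.mul_div_cancel' (Nat.gcd_dvd_right n 2),
      Nat.mul_div_cancel' (Nat.gcd_dvd_left n 2), hc]
  · rw [Nat.div_mul_cancel (Nat.gcd_dvd_left n 2)]
    exact (Nat.gcd_dvd_left _ _).trans (Nat.gcd_dvd_left _ _)

end CfsgLib.SchurCover
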