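import Cfsg.Agent.Lib.SchurCover.Basic
import Cfsg.Agent.Lib.CharTheory.Orthogonality
import Cfsg.Agent.Lib.CharTheory.Decomp

set_option autoImplicit false

/-!
Schur's theorem: the square of the exponent of the multiplier divides the group order.
-/

namespace CfsgLib.SchurCover

open scoped commutatorElement

universe u

/-- Central elements act as scalars; those in the commutator subgroup with scalar root of unity of
order dividing the degree. -/
theorem exists_central_scalar {Γ : Type u} [Group Γ] [Finite Γ] {Z : Subgroup Γ}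
    (hZ : Z ≤ Subgroup.center Γ) (hZ' : Z ≤ commutator Γ) (χ : Cfsg.IrrCharacter Γ) :
    ∃ (n : ℕ) (ω : Z →* ℂˣ), χ.1 1 = n ∧ (∀ z : Z, χ.1 z = n * (ω z : ℂ)) ∧ ω ^ n = 1 := by
  have := Fintype.ofFinite Γ
  obtain ⟨n, ρ, hρ, hχ⟩ := χ.2
  have := CfsgLib.CharTheory.nontrivial_of_isIrreducible ρ
  have hc : ∀ z : Z, ∃ c : ℂ, ρ z = c • LinearMap.id := fun z =>
    CfsgLib.CharTheory.exists_smul_of_commute ρ (ρ z) fun g => by
      rw [← Module.End.mul_eq_comp, ← Module.End.mul_eq_comp, ← map_mul, ← map_mul,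
        Subgroup.mem_center_iff.1 (hZ z.2) g]
  choose c hc using hc
  obtain ⟨v, hv⟩ := exists_ne (0 : Fin n → ℂ)
  have hinj : ∀ a b : ℂ, a • (LinearMap.id : (Fin n → ℂ) →ₗ[ℂ] Fin n → ℂ) = b • LinearMap.id →
      a = b := fun a b h => smul_left_injective ℂ hv (LinearMap.congr_fun h v)
  have h1 : c 1 = 1 := hinj _ _ (by rw [← hc, Subgroup.coe_one, map_one, one_smul]; rfl)
  have hmul : ∀ a b, c (a * b) = c a * c b := fun a b => hinj _ _ (by
    rw [← hc, Subgroup.coe_mul, map_mul, hc, hc]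
    refine LinearMap.ext fun x => ?_
    simp [Module.End.mul_apply, smul_smul, mul_comm])
  let c' : Z →* ℂ := { toFun := c, map_one' := h1, map_mul' := hmul }
  refine ⟨n, c'.toHomUnits, ?_, fun z => ?_, ?_⟩
  · rw [← hχ, ρ.char_one, Module.finrank_fin_fun]
  · rw [← hχ, MonoidHom.coe_toHomUnits]
    show LinearMap.trace ℂ _ (ρ z) = _
    rw [hc, map_smul, LinearMap.trace_id, Module.finrank_fin_fun, smul_eq_mul, mul_comm]
    rfl
  · let d : Γ →* ℂˣ := (LinearMap.det.comp ρ).toHomUnits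
    refine MonoidHom.ext fun z => Units.ext ?_
    have h2 : d z = 1 := MonoidHom.mem_ker.1 (Abelianization.commutator_subset_ker d (hZ' z.2))
    have h3 : LinearMap.det (ρ z) = 1 := congrArg Units.val h2
    rw [hc, LinearMap.det_smul, LinearMap.det_id, mul_one, Module.finrank_fin_fun] at h3
    simpa [c'] using h3

theorem exponent_sq_dvd_card {Q : Type u} [Group Q] [Finite Q] :
    Monoid.exponent (M0 Q) ^ 2 ∣ Nat.card Q := by
  classical
  obtain ⟨Γ, i₁, i₂, σ, f, hf, hσ, hb⟩ := exists_cover (Q := Q)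
  have hexp : Monoid.exponent (M0 Q) = Monoid.exponent σ.ker :=
    Monoid.exponent_eq_of_mulEquiv (MulEquiv.ofBijective _ hb)
  rw [hexp]
  set Z := σ.ker
  let _ : CommGroup Z :=
    { (inferInstance : Group Z) with
      mul_comm := fun a b => Subtype.ext (Subgroup.mem_center_iff.1 (hσ.2.1 b.2) a) }
  have := Fintype.ofFinite Γ
  have := Fintype.ofFinite Z
  -- a character of the kernel of order the exponent
  obtain ⟨eZ⟩ := CommGroup.monoidHom_mulEquiv_of_hasEnoughRootsOfUnity Z ℂ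
  obtain ⟨z₀, hz₀⟩ := Monoid.exists_orderOf_eq_exponent
    (Monoid.ExponentExists.of_finite (G := Z))
  set φ : Z →* ℂˣ := eZ.symm z₀
  have hφ : orderOf φ = Monoid.exponent Z := by rw [← hz₀]; exact eZ.symm.orderOf_eq z₀
  have hfin : Finite (Cfsg.IrrCharacter Γ) := CfsgLib.CharTheory.finite_irrCharacter
  have := Fintype.ofFinite (Cfsg.IrrCharacter Γ)
  choose n ω hn hω hdet using exists_central_scalar (Z := Z) hσ.2.1 hσ.2.2
  have hleft : ∑ z : Z, ((φ⁻¹ z : ℂˣ) : ℂ) * ∑ χ : Cfsg.IrrCharacter Γ, χ.1 1 * χ.1 z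
      = (Nat.card Γ : ℂ) := by
    simp only [CfsgLib.CharTheory.sum_degree_mul]
    rw [Finset.sum_eq_single 1]
    · simp
    · intro z _ hz
      rw [if_neg (show (z : Γ) ≠ 1 from fun h => hz (Subtype.ext h)), mul_zero]
    · simp
  have hright : ∑ z : Z, ((φ⁻¹ z : ℂˣ) : ℂ) * ∑ χ : Cfsg.IrrCharacter Γ, χ.1 1 * χ.1 z
      = (Nat.card Z : ℂ) * ((∑ χ : Cfsg.IrrCharacter Γ, if ω χ = φ then (n χ) ^ 2 else 0 : ℕ) : ℂ) := by
    simp only [Finset.mul_sum]
    rw [Finset.sum_comm, Nat.cast_sum, Finset.mul_sum]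
    refine Finset.sum_congr rfl fun χ _ => ?_
    simp only [hn, hω]
    have h1 : ∀ z : Z, ((φ⁻¹ z : ℂˣ) : ℂ) * ((n χ : ℂ) * ((n χ : ℂ) * (ω χ z : ℂ)))
        = ((n χ : ℂ) ^ 2) * ((Units.coeHom ℂ).comp (φ⁻¹ * ω χ) z) := fun z => by
      simp [sq]; ring
    rw [Finset.sum_congr rfl fun z _ => h1 z, ← Finset.mul_sum]
    split_ifs with h
    · have : ∀ z : Z, (Units.coeHom ℂ).comp (φ⁻¹ * ω χ) z = 1 := fun z => by
        rw [h, MonoidHom.comp_apply, MonoidHom.mul_apply, MonoidHom.inv_apply, inv_mul_cancel,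
          map_one]
      simp only [this, Finset.sum_const, Finset.card_univ, nsmul_eq_mul, mul_one,
        Nat.card_eq_fintype_card, Nat.cast_pow]
      ring
    · rw [sum_hom_units_eq_zero, mul_zero, Nat.cast_zero, mul_zero]
      intro h1
      refine h (MonoidHom.ext fun z => ?_)
      have h2 : ((φ⁻¹ * ω χ) z : ℂ) = 1 := DFunLike.congr_fun h1 z
      rw [MonoidHom.mul_apply, MonoidHom.inv_apply, Units.val_eq_one, inv_mul_eq_one] at h2
      exact h2.symm
  have hQ : Nat.card Γ = Nat.card Z * Nat.card Q := by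
    rw [← Z.card_mul_index, Subgroup.index_ker, MonoidHom.range_eq_top.2 hσ.1, Subgroup.card_top]
  have key : Nat.card Q = ∑ χ : Cfsg.IrrCharacter Γ, if ω χ = φ then (n χ) ^ 2 else 0 := by
    have h3 := hleft.symm.trans hright
    rw [hQ, Nat.cast_mul] at h3
    exact_mod_cast mul_left_cancel₀ (by exact_mod_cast (Nat.card_pos (α := Z)).ne') h3
  rw [key]
  refine Finset.dvd_sum fun χ _ => ?_
  split_ifs with h
  · refine pow_dvd_pow_of_dvd ?_ 2
    rw [← hφ]
    exact orderOf_dvd_of_pow_eq_one (h ▸ hdet χ)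
  · exact dvd_zero _

end CfsgLib.SchurCover
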