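import Mathlib

set_option autoImplicit false

namespace CfsgLib.SchurCover

/-- An image of a finite abelian group is isomorphic to a subgroup of it. -/
theorem exists_subgroup_equiv_of_surjective {B C : Type*} [CommGroup B] [CommGroup C] [Finite B]
    (f : B →* C) (hf : Function.Surjective f) : ∃ D : Subgroup B, Nonempty (C ≃* D) := by
  have : Finite C := Finite.of_surjective f hf
  obtain ⟨eC⟩ := CommGroup.monoidHom_mulEquiv_of_hasEnoughRootsOfUnity C ℂ
  obtain ⟨eB⟩ := CommGroup.monoidHom_mulEquiv_of_hasEnoughRootsOfUnity B ℂ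
  let g : (C →* ℂˣ) →* (B →* ℂˣ) := MonoidHom.mk' (fun φ => φ.comp f) fun _ _ => rfl
  have hg : Function.Injective g := fun a b h => MonoidHom.ext fun c => by
    obtain ⟨x, rfl⟩ := hf c
    exact DFunLike.congr_fun h x
  let F : C →* B := eB.toMonoidHom.comp (g.comp eC.symm.toMonoidHom)
  exact ⟨F.range, ⟨MonoidHom.ofInjective (f := F) (eB.injective.comp (hg.comp eC.symm.injective))⟩⟩

end CfsgLib.SchurCover
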