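import Cfsg.Agent.Lib.SchurCover.Metacyclic

set_option autoImplicit false

/-!
A Heisenberg extension of `ZMod m × ZMod n` and the multipliers of abelian groups on two
generators.
-/

namespace CfsgLib.SchurCover

open scoped commutatorElement

universe u

/-- Triples with the product `(x,y,z)(x',y',z') = (x+x', y+y', z+z'+x y')`. -/
@[ext] structure Heis (m n : ℕ) (h : n ∣ m) where
  x : ZMod m
  y : ZMod n
  z : ZMod n

namespace Heis

variable {m n : ℕ} {h : n ∣ m}

instance heisMul : Mul (Heis m n h) :=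
  ⟨fun a b => ⟨a.x + b.x, a.y + b.y, a.z + b.z + ZMod.castHom h (ZMod n) a.x * b.y⟩⟩
instance heisOne : One (Heis m n h) := ⟨⟨0, 0, 0⟩⟩
instance heisInv : Inv (Heis m n h) :=
  ⟨fun a => ⟨-a.x, -a.y, -a.z + ZMod.castHom h (ZMod n) a.x * a.y⟩⟩

theorem mul_def (a b : Heis m n h) :
    a * b = ⟨a.x + b.x, a.y + b.y, a.z + b.z + ZMod.castHom h (ZMod n) a.x * b.y⟩ := rfl
theorem one_def : (1 : Heis m n h) = ⟨0, 0, 0⟩ := rfl
theorem inv_def (a : Heis m n h) :
    a⁻¹ = ⟨-a.x, -a.y, -a.z + ZMod.castHom h (ZMod n) a.x * a.y⟩ := rfl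

instance heisGroup : Group (Heis m n h) where
  mul_assoc a b c := by
    simp only [mul_def, map_add]
    ext <;> simp only <;> ring
  one_mul a := by simp [mul_def, one_def]
  mul_one a := by simp [mul_def, one_def]
  inv_mul_cancel a := by
    simp only [mul_def, inv_def, one_def, map_neg]
    ext <;> simp only <;> ring

instance heisFinite [NeZero m] [NeZero n] : Finite (Heis m n h) :=
  Finite.of_injective (fun a => (a.x, a.y, a.z)) fun a b hab => by
    simp only [Prod.mk.injEq] at hab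
    exact Heis.ext hab.1 hab.2.1 hab.2.2

/-- Forgetting the central coordinate. -/
def toProd (m n : ℕ) (h : n ∣ m) : Heis m n h →* Multiplicative (ZMod m × ZMod n) where
  toFun a := Multiplicative.ofAdd (a.x, a.y)
  map_one' := rfl
  map_mul' _ _ := rfl

theorem mem_ker {a : Heis m n h} : a ∈ (toProd m n h).ker ↔ a.x = 0 ∧ a.y = 0 :=
  Prod.ext_iff

/-- The kernel is a copy of `ZMod n`. -/
def kerEquiv (m n : ℕ) (h : n ∣ m) : (toProd m n h).ker ≃* Multiplicative (ZMod n) where
  toFun a := Multiplicative.ofAdd a.1.z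
  invFun c := ⟨⟨0, 0, Multiplicative.toAdd c⟩, rfl⟩
  left_inv a := by
    obtain ⟨a, ha⟩ := a
    obtain ⟨hx, hy⟩ := mem_ker.1 ha
    exact Subtype.ext (Heis.ext hx.symm hy.symm rfl)
  right_inv _ := rfl
  map_mul' a b := by
    obtain ⟨a, ha⟩ := a
    obtain ⟨b, hb⟩ := b
    obtain ⟨hx, hy⟩ := mem_ker.1 ha
    show Multiplicative.ofAdd (a.z + b.z + ZMod.castHom h (ZMod n) a.x * b.y) = _
    rw [hx, map_zero, zero_mul, add_zero]
    rfl

theorem isStem (m n : ℕ) (h : n ∣ m) : Cfsg.IsStemExtension (toProd m n h) := by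
  refine ⟨fun q => ⟨⟨(Multiplicative.toAdd q).1, (Multiplicative.toAdd q).2, 0⟩, rfl⟩, ?_, ?_⟩
  · intro a ha
    obtain ⟨hx, hy⟩ := mem_ker.1 ha
    refine Subgroup.mem_center_iff.2 fun b => ?_
    simp only [mul_def, hx, hy, map_zero, zero_mul, mul_zero, zero_add, add_zero, add_comm]
  · intro a ha
    obtain ⟨hx, hy⟩ := mem_ker.1 ha
    have : a = ⁅(⟨1, 0, 0⟩ : Heis m n h), ⟨0, a.z, 0⟩⁆ := by
      simp only [commutatorElement_def, mul_def, inv_def]
      ext <;> simp [hx, hy, ZMod.cast_one h]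
    rw [this]
    exact Subgroup.commutator_mem_commutator (Subgroup.mem_top _) (Subgroup.mem_top _)

end Heis

/-- The multiplier of a finite group is of order at least that of any stem kernel. -/
theorem card_ker_dvd {Q : Type u} [Group Q] [Finite Q] {Γ : Type*} [Group Γ] (σ : Γ →* Q)
    (hσ : Cfsg.IsStemExtension σ) : Nat.card σ.ker ∣ Nat.card (M0 Q) :=
  let ⟨π, hπ⟩ := exists_kerMap σ hσ
  Subgroup.card_dvd_of_surjective π hπ

set_option maxHeartbeats 400000 in
theorem metaGens_prod (m n : ℕ) :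
    MetaGens (Multiplicative.ofAdd ((1, 0) : ZMod m × ZMod n))
      (Multiplicative.ofAdd ((0, 1) : ZMod m × ZMod n)) m n 0 0 where
  gen := by
    rw [eq_top_iff]
    intro q _
    obtain ⟨i, hi⟩ := ZMod.intCast_surjective (Multiplicative.toAdd q).1
    obtain ⟨j, hj⟩ := ZMod.intCast_surjective (Multiplicative.toAdd q).2
    have : q = Multiplicative.ofAdd ((1, 0) : ZMod m × ZMod n) ^ i *
        Multiplicative.ofAdd ((0, 1) : ZMod m × ZMod n) ^ j := by
      rw [← ofAdd_zsmul, ← ofAdd_zsmul, ← ofAdd_add]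
      apply Multiplicative.toAdd.injective
      ext <;> simp [hi, hj]
    rw [this]
    refine Subgroup.mul_mem _ (Subgroup.zpow_mem _ ?_ i) (Subgroup.zpow_mem _ ?_ j)
    · exact Subgroup.subset_closure (by simp)
    · exact Subgroup.subset_closure (by simp)
  pow_a := by rw [← ofAdd_nsmul]; simp
  pow_b := by rw [← ofAdd_nsmul]; simp
  conj := by simp [mul_comm]

theorem hasCyclicSchurMultiplier_prod (m n : ℕ) [NeZero m] [NeZero n] (hnm : n ∣ m) :
    Cfsg.HasCyclicSchurMultiplier (Multiplicative (ZMod m × ZMod n)) n := by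
  obtain ⟨h1, h2⟩ := M0_metacyclic (metaGens_prod m n) 1 n (fun k _ => one_dvd k) (by
    simp [Nat.gcd_dvd_right])
  refine hasCyclicSchurMultiplier_iff.2 ⟨h1, Nat.dvd_antisymm h2 ?_⟩
  have := card_ker_dvd (Heis.toProd m n hnm) (Heis.isStem m n hnm)
  rwa [Nat.card_congr (Heis.kerEquiv m n hnm).toEquiv, Nat.card_congr Multiplicative.toAdd,
    Nat.card_zmod] at this

end CfsgLib.SchurCover
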