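import Cfsg.Agent.Lib.SchurCover.Basic

set_option autoImplicit false

/-!
Upper bound for the multiplier of a group generated by `a, b` with `b a b⁻¹` a power of `a`.
-/

namespace CfsgLib.SchurCover

open scoped commutatorElement

universe u v

/-- Data of a metacyclic group: `a, b` generate, `a ^ m = 1`, `b ^ n = a ^ t`,
`b a b⁻¹ = a ^ (s + 1)`. -/
structure MetaGens {Q : Type u} [Group Q] (a b : Q) (m n t s : ℕ) : Prop where
  gen : Subgroup.closure ({a, b} : Set Q) = ⊤
  pow_a : a ^ m = 1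
  pow_b : b ^ n = a ^ t
  conj : b * a * b⁻¹ = a ^ (s + 1)

variable {Q : Type u} [Group Q] {a b : Q} {m n t s : ℕ}

theorem stem_metacyclic (h : MetaGens a b m n t s) {Γ : Type v} [Group Γ] [Finite Γ] (σ : Γ →* Q)
    (hσ : Cfsg.IsStemExtension σ) (e g : ℕ) (he : ∀ k : ℕ, a ^ (s * k) = 1 → e ∣ k)
    (hg : Nat.gcd (Nat.gcd m t) (∑ i ∈ Finset.range n, (s + 1) ^ i) ∣ e * g) :
    IsCyclic σ.ker ∧ Nat.card σ.ker ∣ g := by
  obtain ⟨hs, hc, hd⟩ := hσ
  obtain ⟨x, hx⟩ := hs a
  obtain ⟨y, hy⟩ := hs b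
  have hcen : ∀ z ∈ σ.ker, ∀ w : Γ, Commute z w := fun z hz w =>
    (Subgroup.mem_center_iff.1 (hc hz) w).symm
  obtain ⟨z, hz, hyxy⟩ : ∃ z ∈ σ.ker, y * x * y⁻¹ = x ^ (s + 1) * z :=
    ⟨(x ^ (s + 1))⁻¹ * (y * x * y⁻¹), by simp [MonoidHom.mem_ker, hx, hy, h.conj],
      (mul_inv_cancel_left _ _).symm⟩
  have hzx : Commute x z := (hcen z hz x).symm
  set c := x ^ s * z with hcdef
  have hcomm : ⁅y, x⁆ = c := by
    rw [commutatorElement_def, hyxy, hcdef, pow_succ, mul_assoc, mul_assoc]
    congr 1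
    rw [(hcen z hz x⁻¹).eq, mul_inv_cancel_left]
  have hcx : Commute c x := ((Commute.refl x).pow_left s).mul_left hzx.symm
  have hycx : y * x * y⁻¹ = c * x := by rw [← hcomm]; simp [commutatorElement_def]
  have hyc : y * c * y⁻¹ = c ^ (s + 1) := by
    calc y * c * y⁻¹ = (y * x ^ s * y⁻¹) * (y * z * y⁻¹) := by rw [hcdef]; group
      _ = (x ^ (s + 1) * z) ^ s * z := by
        rw [← conj_pow, hyxy, ← (hcen z hz y).eq, mul_inv_cancel_right]
      _ = c ^ (s + 1) := by
        rw [hcdef, (hzx.pow_left _).mul_pow, (hzx.pow_left _).mul_pow, ← pow_mul, ← pow_mul,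
          mul_assoc, ← pow_succ, Nat.mul_comm]
  have hC : (Subgroup.zpowers c).Normal := by
    have hgen : Subgroup.closure ({x, y} : Set Γ) = ⊤ := by
      have h1 : Function.Surjective (σ.comp (Subgroup.closure ({x, y} : Set Γ)).subtype) := by
        rw [← MonoidHom.range_eq_top, eq_top_iff, ← h.gen, Subgroup.closure_le]
        rintro w (rfl | rfl)
        · exact ⟨⟨x, Subgroup.subset_closure (Or.inl rfl)⟩, hx⟩
        · exact ⟨⟨y, Subgroup.subset_closure (Or.inr rfl)⟩, hy⟩
      have := stem_lift_surjective σ ⟨hs, hc, hd⟩ (Subgroup.closure ({x, y} : Set Γ)).subtype h1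
      rw [← MonoidHom.range_eq_top, Subgroup.range_subtype] at this
      exact this
    rw [← Subgroup.normalizer_eq_top_iff, eq_top_iff, ← hgen, Subgroup.closure_le]
    rintro _ (rfl | rfl)
    · exact Subgroup.mem_normalizer_fintype fun p hp => by
        obtain ⟨i, rfl⟩ := hp
        exact ⟨i, by show c ^ i = _; rw [← (hcx.zpow_left i).eq, mul_inv_cancel_right]⟩
    · exact Subgroup.mem_normalizer_fintype fun p hp => by
        obtain ⟨i, rfl⟩ := hp
        refine ⟨((s + 1 : ℕ) : ℤ) * i, ?_⟩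
        show c ^ (((s + 1 : ℕ) : ℤ) * i) = _
        rw [zpow_mul, zpow_natCast, ← hyc, conj_zpow]
  have hcommle : commutator Γ ≤ Subgroup.zpowers c := by
    have hcx' : ∀ q : Γ ⧸ Subgroup.zpowers c, q ∈ Subgroup.center _ := by
      have hgen' : Subgroup.closure ({x, y} : Set Γ) ⊔ σ.ker = ⊤ := by
        rw [← Subgroup.comap_map_eq, MonoidHom.map_closure, Set.image_pair, hx, hy, h.gen,
          Subgroup.comap_top]
      let π := QuotientGroup.mk' (Subgroup.zpowers c)
      have hxy : π x * π y = π y * π x := by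
        have : π ⁅y, x⁆ = 1 := by
          rw [hcomm]; exact (QuotientGroup.eq_one_iff c).2 (Subgroup.mem_zpowers c)
        rw [map_commutatorElement, commutatorElement_eq_one_iff_mul_comm] at this
        exact this.symm
      have hle : (⊤ : Subgroup Γ) ≤ (Subgroup.centralizer {π x} ⊓
          Subgroup.centralizer {π y}).comap π := by
        rw [← hgen', sup_le_iff, Subgroup.closure_le]
        refine ⟨?_, fun w hw => ⟨?_, ?_⟩⟩
        · rintro w (rfl | rfl)
          · exact ⟨Subgroup.mem_centralizer_singleton_iff.2 rfl,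
              Subgroup.mem_centralizer_singleton_iff.2 hxy⟩
          · exact ⟨Subgroup.mem_centralizer_singleton_iff.2 hxy.symm,
              Subgroup.mem_centralizer_singleton_iff.2 rfl⟩
        all_goals
          refine Subgroup.mem_centralizer_singleton_iff.2 ?_
          rw [← map_mul, ← map_mul, (hcen w hw _).eq]
      intro q
      obtain ⟨w, rfl⟩ := QuotientGroup.mk'_surjective _ q
      refine Subgroup.mem_center_iff.2 fun q' => ?_
      obtain ⟨w', rfl⟩ := QuotientGroup.mk'_surjective _ q'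
      have hle' : (⊤ : Subgroup Γ) ≤ (Subgroup.centralizer {π w}).comap π := by
        rw [← hgen', sup_le_iff, Subgroup.closure_le]
        refine ⟨?_, fun v hv => Subgroup.mem_centralizer_singleton_iff.2 ?_⟩
        · rintro v (rfl | rfl)
          · exact Subgroup.mem_centralizer_singleton_iff.2
              (Subgroup.mem_centralizer_singleton_iff.1 (hle (Subgroup.mem_top w)).1).symm
          · exact Subgroup.mem_centralizer_singleton_iff.2
              (Subgroup.mem_centralizer_singleton_iff.1 (hle (Subgroup.mem_top w)).2).symm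
        · rw [← map_mul, ← map_mul, (hcen v hv _).eq]
      exact Subgroup.mem_centralizer_singleton_iff.1 (hle' (Subgroup.mem_top w'))
    intro w hw
    rw [← QuotientGroup.eq_one_iff]
    have : commutator Γ ≤ (QuotientGroup.mk' (Subgroup.zpowers c)).ker := by
      rw [commutator_eq_closure, Subgroup.closure_le]
      rintro _ ⟨p, q, rfl⟩
      rw [SetLike.mem_coe, MonoidHom.mem_ker, map_commutatorElement,
        commutatorElement_eq_one_iff_mul_comm]
      exact Subgroup.mem_center_iff.1 (hcx' _) _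
    exact this hw
  -- the order of `c`
  have hpow : ∀ i : ℕ, y * x ^ i * y⁻¹ = c ^ i * x ^ i := fun i => by
    rw [← conj_pow, hycx, hcx.mul_pow]
  have hfix : ∀ i : ℕ, Commute y (x ^ i) → c ^ i = 1 := fun i hi => by
    have := hpow i
    rw [hi.eq, mul_inv_cancel_right] at this
    exact right_eq_mul.1 this
  have h1 : c ^ m = 1 := hfix m (hcen (x ^ m) (by simp [MonoidHom.mem_ker, hx, h.pow_a]) y).symm
  obtain ⟨w, hw, hyn⟩ : ∃ w ∈ σ.ker, x ^ t = y ^ n * w :=
    ⟨(y ^ n)⁻¹ * x ^ t, by simp [MonoidHom.mem_ker, hx, hy, h.pow_b],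
      (mul_inv_cancel_left _ _).symm⟩
  have h2 : c ^ t = 1 := hfix t (by
    rw [hyn]; exact ((Commute.refl y).pow_right n).mul_right (hcen w hw y).symm)
  have hiter : ∀ i : ℕ, y ^ i * x * (y ^ i)⁻¹ =
      c ^ (∑ j ∈ Finset.range i, (s + 1) ^ j) * x := by
    intro i
    induction i with
    | zero => simp
    | succ i ih =>
      calc y ^ (i + 1) * x * (y ^ (i + 1))⁻¹ = y * (y ^ i * x * (y ^ i)⁻¹) * y⁻¹ := by
            rw [pow_succ' y i, mul_inv_rev]; simp only [mul_assoc]
        _ = (y * c ^ (∑ j ∈ Finset.range i, (s + 1) ^ j) * y⁻¹) * (y * x * y⁻¹) := by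
            rw [ih]; group
        _ = (y * c * y⁻¹) ^ (∑ j ∈ Finset.range i, (s + 1) ^ j) * (c * x) := by
            rw [conj_pow, hycx]
        _ = _ := by
            rw [hyc, ← pow_mul, ← mul_assoc, ← pow_succ, Finset.sum_range_succ', pow_zero,
              Finset.mul_sum]
            simp only [pow_succ']
  have h3 : c ^ (∑ j ∈ Finset.range n, (s + 1) ^ j) = 1 := by
    have hyx : Commute (y ^ n) x := by
      have : y ^ n = x ^ t * w⁻¹ := by rw [hyn, mul_inv_cancel_right]
      rw [this]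
      exact ((Commute.refl x).pow_left t).mul_left (hcen w hw x).inv_left
    have := hiter n
    rw [hyx.eq, mul_inv_cancel_right] at this
    exact right_eq_mul.1 this
  have hord : orderOf c ∣ e * g := by
    refine dvd_trans ?_ hg
    exact Nat.dvd_gcd (Nat.dvd_gcd (orderOf_dvd_of_pow_eq_one h1) (orderOf_dvd_of_pow_eq_one h2))
      (orderOf_dvd_of_pow_eq_one h3)
  -- the kernel lies in `⟨c ^ e⟩`
  have hker : σ.ker ≤ Subgroup.zpowers (c ^ e) := by
    intro w hw
    obtain ⟨k, rfl⟩ := Submonoid.mem_powers_iff _ _ |>.1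
      (mem_powers_iff_mem_zpowers.2 (hcommle (hd hw)))
    have hσc : σ c = a ^ s := by rw [hcdef, map_mul, map_pow, hx, MonoidHom.mem_ker.1 hz, mul_one]
    have hk : a ^ (s * k) = 1 := by
      rw [pow_mul, ← hσc, ← map_pow]; exact hw
    obtain ⟨k', rfl⟩ := he k hk
    rw [pow_mul]
    exact Subgroup.pow_mem _ (Subgroup.mem_zpowers _) _
  refine ⟨Subgroup.isCyclic_of_le hker, (Subgroup.card_dvd_of_le hker).trans ?_⟩
  rw [Nat.card_zpowers]
  exact orderOf_dvd_of_pow_eq_one (by rw [← pow_mul]; exact orderOf_dvd_iff_pow_eq_one.1 hord)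

theorem M0_metacyclic [Finite Q] (h : MetaGens a b m n t s) (e g : ℕ)
    (he : ∀ k : ℕ, a ^ (s * k) = 1 → e ∣ k)
    (hg : Nat.gcd (Nat.gcd m t) (∑ i ∈ Finset.range n, (s + 1) ^ i) ∣ e * g) :
    IsCyclic (M0 Q) ∧ Nat.card (M0 Q) ∣ g := by
  obtain ⟨Γ, i₁, i₂, σ, f, hf, hσ, hb⟩ := exists_cover (Q := Q)
  obtain ⟨h1, h2⟩ := stem_metacyclic h σ hσ e g he hg
  let E := MulEquiv.ofBijective _ hb
  exact ⟨isCyclic_of_surjective E.symm E.symm.surjective, by
    rwa [Nat.card_congr E.toEquiv]⟩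

end CfsgLib.SchurCover
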