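import Cfsg.Agent.Lib.SchurCover.Metacyclic
import Mathlib.GroupTheory.PresentedGroup
import Mathlib.GroupTheory.SemidirectProduct
import Mathlib.Data.ZMod.Basic

set_option autoImplicit false

/-!
The multiplier of the metacyclic group `⟨a, b | a ^ m = 1, b ^ n = a ^ t, b a b⁻¹ = a ^ r⟩`.
-/

namespace CfsgLib.SchurCover

open scoped commutatorElement

namespace MetaExt

/-- The relations. -/
abbrev rels (m n t r : ℕ) : Set (FreeGroup Bool) :=
  {FreeGroup.of true ^ m, (FreeGroup.of false) ^ n * (FreeGroup.of true ^ t)⁻¹,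
    FreeGroup.of false * FreeGroup.of true * (FreeGroup.of false)⁻¹ * (FreeGroup.of true ^ r)⁻¹}

variable {m n t r : ℕ}

/-- The generator `a`. -/
def genA (m n t r : ℕ) : PresentedGroup (rels m n t r) := PresentedGroup.of true

/-- The generator `b`. -/
def genB (m n t r : ℕ) : PresentedGroup (rels m n t r) := PresentedGroup.of false

theorem genA_pow : genA m n t r ^ m = 1 := by
  rw [genA, PresentedGroup.of, ← map_pow]
  exact PresentedGroup.one_of_mem (by simp [rels])

theorem genB_pow : genB m n t r ^ n = genA m n t r ^ t := by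
  rw [← mul_inv_eq_one, genA, genB, PresentedGroup.of, PresentedGroup.of, ← map_pow, ← map_pow,
    ← map_inv, ← map_mul]
  exact PresentedGroup.one_of_mem (by simp [rels])

theorem genB_conj : genB m n t r * genA m n t r * (genB m n t r)⁻¹ = genA m n t r ^ r := by
  rw [← mul_inv_eq_one, genA, genB, PresentedGroup.of, PresentedGroup.of, ← map_pow, ← map_inv,
    ← map_inv, ← map_mul, ← map_mul, ← map_mul]
  exact PresentedGroup.one_of_mem (by simp [rels])

theorem closure_gen :
    Subgroup.closure ({genA m n t r, genB m n t r} : Set (PresentedGroup (rels m n t r))) = ⊤ := by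
  rw [← PresentedGroup.closure_range_of (rels m n t r)]
  congr 1
  ext x
  simp [genA, genB, eq_comm, or_comm]

theorem exists_model (m r g : ℕ) (u v : ℤ) (hm0 : 0 < m) (hg0 : 0 < g) (hgm : g ∣ m)
    (hgr : (g : ℤ) ∣ (r : ℤ) - 1) :
    ∃ (A : Type) (_ : AddCommGroup A) (_ : Finite A) (a z : A) (β : A →+ A) (χ : A →+ ZMod m),
      (∀ x : A, ∃ i j : ℤ, i • a + j • z = x) ∧ addOrderOf z = g ∧ (m : ℤ) • a = u • z ∧
      β a = (r : ℤ) • a + v • z ∧ β z = z ∧ χ a = 1 ∧ χ z = 0 := by
  have : NeZero (m * g) := ⟨Nat.mul_ne_zero hm0.ne' hg0.ne'⟩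
  have : NeZero m := ⟨hm0.ne'⟩
  let ψ : ZMod m →+ ZMod (m * g) := ZMod.lift m
    ⟨zmultiplesHom _ ((v * m : ℤ) : ZMod (m * g)), by
      rw [zmultiplesHom_apply, zsmul_eq_mul, ← Int.cast_mul,
        ZMod.intCast_zmod_eq_zero_iff_dvd]
      obtain ⟨w, hw⟩ := hgm
      exact ⟨v * w, by push_cast [hw]; ring⟩⟩
  let βB : ZMod (m * g) × ZMod m →+ ZMod (m * g) × ZMod m :=
    AddMonoidHom.prod
      (r • AddMonoidHom.fst _ _ + ψ.comp (AddMonoidHom.snd _ _))
      (r • AddMonoidHom.snd _ _)
  let a0 : ZMod (m * g) × ZMod m := ((u : ℤ), 1)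
  let z0 : ZMod (m * g) × ZMod m := (((m : ℤ) : ZMod (m * g)), 0)
  have hψ1 : ψ 1 = ((v * m : ℤ) : ZMod (m * g)) := by
    simp only [ψ]
    conv_lhs => rw [← Int.cast_one, ZMod.lift_coe]
    simp
  have hma : (m : ℤ) • a0 = u • z0 := by
    refine Prod.ext ?_ ?_
    · show (m : ℤ) • ((u : ℤ) : ZMod (m * g)) = u • (((m : ℤ) : ZMod (m * g)))
      rw [zsmul_eq_mul, zsmul_eq_mul]; push_cast; ring
    · show (m : ℤ) • (1 : ZMod m) = u • (0 : ZMod m)
      simp
  have hz0 : addOrderOf z0 = g := by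
    rw [Prod.addOrderOf, addOrderOf_zero, Nat.lcm_one_right]
    show addOrderOf ((((m : ℕ) : ℤ)) : ZMod (m * g)) = g
    rw [Int.cast_natCast, ZMod.addOrderOf_coe _ (Nat.mul_ne_zero hm0.ne' hg0.ne'),
      Nat.gcd_mul_right_left, Nat.mul_div_cancel_left _ hm0]
  have hβz : βB z0 = z0 := by
    have h1 : ((r : ℤ) - 1) • z0 = 0 := addOrderOf_dvd_iff_zsmul_eq_zero.1 (by rw [hz0]; exact hgr)
    rw [sub_smul, one_smul, sub_eq_zero, natCast_zsmul] at h1
    refine Eq.trans (Prod.ext ?_ ?_) h1
    · show r • z0.1 + ψ (0 : ZMod m) = r • z0.1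
      rw [map_zero, add_zero]
    · rfl
  have hβa : βB a0 = (r : ℤ) • a0 + v • z0 := by
    refine Prod.ext ?_ ?_
    · show r • ((u : ℤ) : ZMod (m * g)) + ψ 1 =
        (r : ℤ) • ((u : ℤ) : ZMod (m * g)) + v • (((m : ℤ) : ZMod (m * g)))
      rw [natCast_zsmul, hψ1, zsmul_eq_mul, Int.cast_mul]
    · show r • (1 : ZMod m) = (r : ℤ) • (1 : ZMod m) + v • (0 : ZMod m)
      simp
  let A : AddSubgroup (ZMod (m * g) × ZMod m) := AddSubgroup.closure {a0, z0}
  have hAmem : ∀ {x}, x ∈ A ↔ ∃ i j : ℤ, i • a0 + j • z0 = x :=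
    AddSubgroup.mem_closure_pair
  have hβA : ∀ x ∈ A, βB x ∈ A := by
    intro x hx
    obtain ⟨i, j, rfl⟩ := hAmem.1 hx
    rw [map_add, map_zsmul, map_zsmul, hβa, hβz]
    exact hAmem.2 ⟨i * r, i * v + j, by module⟩
  refine ⟨A, inferInstance, inferInstance, ⟨a0, AddSubgroup.subset_closure (Or.inl rfl)⟩,
    ⟨z0, AddSubgroup.subset_closure (Or.inr rfl)⟩,
    (βB.comp A.subtype).codRestrict A fun x => hβA x x.2,
    (AddMonoidHom.snd _ _).comp A.subtype, fun x => ?_, ?_, Subtype.ext hma, Subtype.ext hβa,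
    Subtype.ext hβz, rfl, rfl⟩
  · obtain ⟨i, j, hij⟩ := hAmem.1 x.2
    exact ⟨i, j, Subtype.ext hij⟩
  · exact (addOrderOf_injective A.subtype Subtype.val_injective _).symm.trans hz0

theorem exists_ext (m n r l d e s' S' g : ℕ) (hm : m = d * e) (hm0 : 0 < m) (hn : 0 < n)
    (hr : r = d * s' + 1) (hS : ∑ i ∈ Finset.range n, r ^ i = e * S')
    (hco : IsCoprime (s' : ℤ) (e : ℤ)) (hgl : g ∣ l) (hgd : g ∣ d) (hgS : g ∣ S') (hg0 : 0 < g) :
    Finite (PresentedGroup (rels m n (e * l) r)) ∧ orderOf (genA m n (e * l) r) = m ∧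
      ∃ (Γ : Type) (_ : Group Γ) (_ : Finite Γ) (σ : Γ →* PresentedGroup (rels m n (e * l) r)),
        Cfsg.IsStemExtension σ ∧ Nat.card σ.ker = g := by
  obtain ⟨u, v, huv⟩ := hco
  have : NeZero m := ⟨hm0.ne'⟩
  obtain ⟨A, _, _, a, z, βA, χ, hAdec, hzg, hmaA, hβaa, hβza, hχa, hχz⟩ :=
    exists_model m r g u v hm0 hg0 (hm ▸ hgd.mul_right e) (by
      rw [hr]; push_cast; rw [add_sub_cancel_right]
      exact (Int.natCast_dvd_natCast.2 hgd).mul_right _)
  have hz : ∀ k : ℤ, (g : ℤ) ∣ k → k • z = 0 := fun k hk =>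
    addOrderOf_dvd_iff_zsmul_eq_zero.1 (by rw [hzg]; exact hk)
  have hiter : ∀ k : ℕ, βA^[k] a = ((r : ℤ) ^ k) • a +
      ((∑ i ∈ Finset.range k, (r : ℤ) ^ i) * v) • z := by
    intro k
    induction k with
    | zero => simp
    | succ k ih =>
      rw [Function.iterate_succ_apply', ih, map_add, map_zsmul, map_zsmul, hβaa, hβza,
        Finset.sum_range_succ]
      module
  have hs' : (r : ℤ) = d * s' + 1 := by rw [hr]; push_cast; ring
  have hm' : (m : ℤ) = d * e := by rw [hm]; push_cast; ring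
  have hq : (r : ℤ) ^ n = 1 + m * (s' * S') := by
    have h1 := geom_sum_mul_add ((d : ℤ) * s') n
    rw [← hs'] at h1
    have h2 : (∑ i ∈ Finset.range n, (r : ℤ) ^ i) = e * S' := by exact_mod_cast hS
    rw [← h1, h2, hm']
    ring
  have hpern : ∀ x : A, βA^[n] x = x := by
    have ha : βA^[n] a = a := by
      rw [hiter, hq, show (∑ i ∈ Finset.range n, (r : ℤ) ^ i) = e * S' by exact_mod_cast hS,
        add_smul, one_smul, mul_comm (m : ℤ), mul_smul, hmaA, smul_smul, add_assoc, ← add_smul,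
        hz, add_zero]
      have : (s' : ℤ) * S' * u + e * S' * v = S' := by linear_combination (S' : ℤ) * huv
      rw [this]
      exact Int.natCast_dvd_natCast.2 hgS
    have hzk : ∀ k, βA^[k] z = z := fun k => Function.iterate_fixed hβza k
    intro x
    obtain ⟨i, j, rfl⟩ := hAdec x
    induction n with
    | zero => rfl
    | succ k _ => rw [iterate_map_add, iterate_map_zsmul, iterate_map_zsmul, ha, hzk]
  let β : MulAut (Multiplicative A) := AddEquiv.toMultiplicative
    { toFun := βA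
      invFun := βA^[n - 1]
      left_inv := fun x => by
        rw [← Function.iterate_succ_apply, Nat.succ_eq_add_one, Nat.sub_add_cancel hn, hpern]
      right_inv := fun x => by
        rw [← Function.iterate_succ_apply' βA, Nat.succ_eq_add_one, Nat.sub_add_cancel hn, hpern]
      map_add' := map_add βA }
  let φ : Multiplicative ℤ →* MulAut (Multiplicative A) := zpowersHom _ β
  have hβn : β ^ n = 1 := by
    have : ∀ (k : ℕ) (x : Multiplicative A),
        (β ^ k) x = Multiplicative.ofAdd (βA^[k] (Multiplicative.toAdd x)) := by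
      intro k
      induction k with
      | zero => intro x; rfl
      | succ k ih =>
        intro x
        rw [pow_succ', MulAut.mul_apply, ih, Function.iterate_succ_apply']
        rfl
    exact MulEquiv.ext fun x => by rw [this, hpern]; rfl
  let il : Multiplicative A →* Multiplicative A ⋊[φ] Multiplicative ℤ := SemidirectProduct.inl
  let ir : Multiplicative ℤ →* Multiplicative A ⋊[φ] Multiplicative ℤ := SemidirectProduct.inr
  let B1 : Multiplicative A ⋊[φ] Multiplicative ℤ := ir (Multiplicative.ofAdd 1)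
  have hB1 : ∀ x : A, B1 * il (Multiplicative.ofAdd x) * B1⁻¹ =
      il (Multiplicative.ofAdd (βA x)) := by
    intro x
    rw [show B1⁻¹ = ir (Multiplicative.ofAdd 1)⁻¹ from (map_inv ir _).symm]
    refine (SemidirectProduct.inl_aut _ _).symm.trans ?_
    congr 1
  have hdec : ∀ w : Multiplicative A ⋊[φ] Multiplicative ℤ,
      w = il w.left * B1 ^ Multiplicative.toAdd w.right := by
    intro w
    conv_lhs => rw [← SemidirectProduct.inl_left_mul_inr_right w]
    congr 1
    rw [← map_zpow, ← ofAdd_zsmul, smul_eq_mul, mul_one, ofAdd_toAdd]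
  set T : ℕ := e * l with hT
  let c : Multiplicative A ⋊[φ] Multiplicative ℤ :=
    il (Multiplicative.ofAdd (-((T : ℤ) • a))) * ir (Multiplicative.ofAdd (n : ℤ))
  have hta : βA ((T : ℤ) • a) = (T : ℤ) • a := by
    have h1 : ((T : ℤ) * (r - 1)) • a + ((T : ℤ) * v) • z = 0 := by
      rw [hs', add_sub_cancel_right, hT, show ((e * l : ℕ) : ℤ) * ((d : ℤ) * s') = (l * s') * m by
        rw [hm']; push_cast; ring, mul_smul, hmaA, smul_smul, ← add_smul]
      refine hz _ ?_
      have : (l : ℤ) * s' * u + ((e * l : ℕ) : ℤ) * v = l := by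
        push_cast; linear_combination (l : ℤ) * huv
      rw [this]
      exact Int.natCast_dvd_natCast.2 hgl
    rw [map_zsmul, hβaa]
    calc (T : ℤ) • ((r : ℤ) • a + v • z)
        = (T : ℤ) • a + (((T : ℤ) * (r - 1)) • a + ((T : ℤ) * v) • z) := by module
      _ = _ := by rw [h1, add_zero]
  have hcB : B1 * c * B1⁻¹ = c := by
    have h1 : B1 * ir (Multiplicative.ofAdd (n : ℤ)) = ir (Multiplicative.ofAdd (n : ℤ)) * B1 := by
      simp only [B1, ← map_mul, mul_comm]
    calc B1 * c * B1⁻¹ = (B1 * il (Multiplicative.ofAdd (-((T : ℤ) • a))) * B1⁻¹) *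
          (B1 * ir (Multiplicative.ofAdd (n : ℤ)) * B1⁻¹) := by simp only [c]; group
      _ = c := by rw [hB1, map_neg, hta, h1, mul_inv_cancel_right]
  have hφn : φ (Multiplicative.ofAdd (n : ℤ)) = 1 := by
    simp [φ, hβn]
  have hcA : ∀ x : A, Commute (il (Multiplicative.ofAdd x)) c := by
    intro x
    simp only [c]
    generalize Multiplicative.ofAdd (-((T : ℤ) • a)) = q
    refine SemidirectProduct.ext ?_ ?_
    · simp [il, ir, hφn, mul_comm]
    · simp [il, ir]
  have hcc : c ∈ Subgroup.center _ := by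
    refine Subgroup.mem_center_iff.2 fun w => ?_
    have h1 : Commute B1 c := mul_inv_eq_iff_eq_mul.1 hcB
    rw [hdec w]
    exact ((hcA (Multiplicative.toAdd w.left)).mul_left (h1.zpow_left _)).eq
  have hN : (Subgroup.zpowers c).Normal := ⟨fun x hx w => by
    rw [Subgroup.mem_center_iff.1 (Subgroup.zpowers_le.2 hcc hx) w, mul_inv_cancel_right]
    exact hx⟩
  let π := QuotientGroup.mk' (Subgroup.zpowers c)
  let ι : Multiplicative A →* (Multiplicative A ⋊[φ] Multiplicative ℤ) ⧸ Subgroup.zpowers c :=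
    π.comp il
  let b : (Multiplicative A ⋊[φ] Multiplicative ℤ) ⧸ Subgroup.zpowers c := π B1
  have hπc : π c = 1 := (QuotientGroup.eq_one_iff c).2 (Subgroup.mem_zpowers c)
  have hbn : b ^ n = ι (Multiplicative.ofAdd ((T : ℤ) • a)) := by
    have h1 := hπc
    rw [map_mul, ofAdd_neg, map_inv, map_inv, inv_mul_eq_one] at h1
    refine Eq.trans ?_ h1.symm
    simp only [b, B1, ← map_pow]
    congr 2
    rw [← ofAdd_nsmul]; simp
  have hbι : ∀ x : A, b * ι (Multiplicative.ofAdd x) * b⁻¹ = ι (Multiplicative.ofAdd (βA x)) := by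
    intro x
    simp only [b, ι, MonoidHom.comp_apply, ← map_inv, ← map_mul, hB1]
  have hcr : SemidirectProduct.rightHom c = Multiplicative.ofAdd (n : ℤ) := by
    simp only [c]
    generalize Multiplicative.ofAdd (-((T : ℤ) • a)) = q
    simp [il, ir]
  have hιinj : Function.Injective ι := by
    refine (injective_iff_map_eq_one ι).2 fun x hx => ?_
    obtain ⟨k, hk⟩ := Subgroup.mem_zpowers_iff.1 ((QuotientGroup.eq_one_iff _).1 hx)
    have h2 := congrArg (fun w => Multiplicative.toAdd (SemidirectProduct.rightHom w)) hk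
    simp [map_zpow, hcr, il] at h2
    rcases h2 with rfl | h2
    · exact SemidirectProduct.inl_injective (hk.symm.trans (by simp))
    · omega
  have hrep : ∀ γ, ∃ (x : A) (k : ℤ), γ = ι (Multiplicative.ofAdd x) * b ^ k := by
    intro γ
    obtain ⟨w, rfl⟩ := QuotientGroup.mk'_surjective _ γ
    refine ⟨Multiplicative.toAdd w.left, Multiplicative.toAdd w.right, ?_⟩
    conv_lhs => rw [hdec w, map_mul, map_zpow]
    rfl
  have hfin : Finite ((Multiplicative A ⋊[φ] Multiplicative ℤ) ⧸ Subgroup.zpowers c) := by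
    refine Finite.of_surjective
      (fun p : A × Fin n => ι (Multiplicative.ofAdd p.1) * b ^ (p.2 : ℕ)) fun γ => ?_
    obtain ⟨x, k, rfl⟩ := hrep γ
    refine ⟨(x + (k / n) • ((T : ℤ) • a), ⟨(k % n).toNat, by
      have := Int.emod_lt_of_pos k (show (0 : ℤ) < n by omega)
      have := Int.emod_nonneg k (show (n : ℤ) ≠ 0 by omega)
      omega⟩), ?_⟩
    show ι _ * b ^ (k % n).toNat = _
    rw [ofAdd_add, map_mul, ofAdd_zsmul, map_zpow, ← hbn, mul_assoc, ← zpow_natCast b n,
      ← zpow_mul, ← zpow_natCast b, Int.toNat_of_nonneg (Int.emod_nonneg k (by omega)), ← zpow_add,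
      mul_comm ((n : ℤ)), mul_comm (k / n), Int.mul_ediv_add_emod]
  -- the map to the presented group
  let P := PresentedGroup (rels m n T r)
  have hAm : (genA m n T r : P) ^ (m : ℤ) = 1 := by rw [zpow_natCast]; exact genA_pow
  let fZ : Multiplicative (ZMod m) →* P := AddMonoidHom.toMultiplicativeLeft (ZMod.lift m
    ⟨zmultiplesHom (Additive P) (Additive.ofMul (genA m n T r)), by
      rw [zmultiplesHom_apply, ← ofMul_zpow, hAm]; rfl⟩)
  have hfZ : ∀ i : ℤ, fZ (Multiplicative.ofAdd (i : ZMod m)) = genA m n T r ^ i := by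
    intro i; simp [fZ]
  let fl : Multiplicative A →* P :=
    fZ.comp (AddMonoidHom.toMultiplicative χ)
  have hfl : ∀ i j : ℤ, fl (Multiplicative.ofAdd (i • a + j • z)) = genA m n T r ^ i := by
    intro i j
    rw [← hfZ]
    refine congrArg fZ (congrArg Multiplicative.ofAdd ?_)
    simp [map_add, map_zsmul, hχa, hχz]
  let f : Multiplicative A ⋊[φ] Multiplicative ℤ →* P :=
    SemidirectProduct.lift fl (zpowersHom P (genB m n T r)) (by
      suffices h : fl.comp β.toMonoidHom = (MulAut.conj (genB m n T r)).toMonoidHom.comp fl by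
        intro k
        obtain ⟨k, rfl⟩ := Multiplicative.ofAdd.surjective k
        simp only [φ, zpowersHom_apply, toAdd_ofAdd, map_zpow]
        induction k with
        | zero => ext; simp
        | succ k ih =>
          refine MonoidHom.ext fun x => ?_
          rw [zpow_add_one, zpow_add_one]
          have e1 := DFunLike.congr_fun ih (β x)
          have e2 := DFunLike.congr_fun h x
          simp only [MonoidHom.comp_apply, MulEquiv.coe_toMonoidHom] at e1 e2
          simp only [MonoidHom.comp_apply, MulEquiv.coe_toMonoidHom, MulAut.mul_apply, e1, e2]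
        | pred k ih =>
          refine MonoidHom.ext fun x => ?_
          rw [zpow_sub_one, zpow_sub_one]
          have e1 := DFunLike.congr_fun ih (β⁻¹ x)
          have e2 := DFunLike.congr_fun h (β⁻¹ x)
          simp only [MonoidHom.comp_apply, MulEquiv.coe_toMonoidHom, MulAut.apply_inv_self] at e1 e2
          simp only [MonoidHom.comp_apply, MulEquiv.coe_toMonoidHom, MulAut.mul_apply, e1]
          rw [e2, MulAut.inv_apply_self]
      refine MonoidHom.ext fun x => ?_
      obtain ⟨i, j, hij⟩ := hAdec (Multiplicative.toAdd x)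
      obtain rfl : x = Multiplicative.ofAdd (i • a + j • z) :=
        Multiplicative.toAdd.injective hij.symm
      show fl (Multiplicative.ofAdd (βA (i • a + j • z))) = _
      rw [map_add, map_zsmul, map_zsmul, hβaa, hβza, show i • ((r : ℤ) • a + v • z) + j • z =
        (i * r) • a + (i * v + j) • z by module, hfl]
      simp only [MonoidHom.comp_apply, MulEquiv.coe_toMonoidHom, MulAut.conj_apply, hfl]
      rw [← conj_zpow, genB_conj, ← zpow_natCast, ← zpow_mul, mul_comm])
  have hfc : f c = 1 := by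
    have h1 : -((T : ℤ) • a) = (-(T : ℤ)) • a + (0 : ℤ) • z := by module
    simp only [c, f, il, ir, map_mul, SemidirectProduct.lift_inl, SemidirectProduct.lift_inr, h1,
      hfl, zpowersHom_apply, toAdd_ofAdd, zpow_natCast, zpow_neg]
    rw [genB_pow]
    exact inv_mul_cancel _
  let σ : (Multiplicative A ⋊[φ] Multiplicative ℤ) ⧸ Subgroup.zpowers c →* P :=
    QuotientGroup.lift _ f (Subgroup.zpowers_le.2 hfc)
  have hσι : ∀ i j : ℤ, σ (ι (Multiplicative.ofAdd (i • a + j • z))) = genA m n T r ^ i := by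
    intro i j
    show f (il _) = _
    simp only [f, il, SemidirectProduct.lift_inl]
    exact hfl i j
  have hσb : σ b = genB m n T r := by
    show f B1 = _
    simp only [f, B1, ir, SemidirectProduct.lift_inr]
    exact zpow_one (genB m n T r)
  have hσs : Function.Surjective σ := by
    rw [← MonoidHom.range_eq_top, eq_top_iff, ← closure_gen, Subgroup.closure_le]
    rintro _ (rfl | rfl)
    · exact ⟨_, (hσι 1 0).trans (zpow_one _)⟩
    · exact ⟨b, hσb⟩
  -- the kernel
  let Z := Subgroup.zpowers (ι (Multiplicative.ofAdd z))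
  have hzc : ι (Multiplicative.ofAdd z) ∈ Subgroup.center _ := by
    refine Subgroup.mem_center_iff.2 fun γ => ?_
    obtain ⟨x, k, rfl⟩ := hrep γ
    have h1 : Commute b (ι (Multiplicative.ofAdd z)) := by
      refine mul_inv_eq_iff_eq_mul.1 ?_
      rw [hbι, hβza]
    exact ((((Commute.all _ _).map ι : Commute (ι (Multiplicative.ofAdd x)) _)).mul_left
      (h1.zpow_left k)).eq
  have hZn : Z.Normal := ⟨fun x hx w => by
    rw [Subgroup.mem_center_iff.1 (Subgroup.zpowers_le.2 hzc hx) w, mul_inv_cancel_right]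
    exact hx⟩
  let ρ := QuotientGroup.mk' Z
  have hρz : ∀ j : ℤ, ρ (ι (Multiplicative.ofAdd (j • z))) = 1 := fun j => by
    rw [ofAdd_zsmul, map_zpow, map_zpow,
      (QuotientGroup.eq_one_iff (ι (Multiplicative.ofAdd z))).2 (Subgroup.mem_zpowers _) |>
        fun h : ρ (ι (Multiplicative.ofAdd z)) = 1 => h, one_zpow]
  let qa := ρ (ι (Multiplicative.ofAdd a))
  let qb := ρ b
  have hτrel : ∀ w ∈ rels m n T r,
      FreeGroup.lift (fun i : Bool => bif i then qa else qb) w = 1 := by
    rintro w (rfl | rfl | rfl)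
    · rw [map_pow, FreeGroup.lift_apply_of]
      show qa ^ m = 1
      simp only [qa]
      rw [← map_pow, ← map_pow, ← ofAdd_nsmul, ← natCast_zsmul, hmaA, hρz]
    · simp only [map_mul, map_inv, map_pow, FreeGroup.lift_apply_of, cond_true, cond_false, qa, qb]
      rw [← map_pow, hbn, ← map_pow, ← map_pow ι, ← ofAdd_nsmul, natCast_zsmul, mul_inv_cancel]
    · simp only [map_mul, map_inv, map_pow, FreeGroup.lift_apply_of, cond_true, cond_false, qa, qb]
      rw [← map_inv, ← map_mul, ← map_mul, hbι, hβaa, ofAdd_add, map_mul, map_mul, hρz, mul_one,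
        natCast_zsmul, ofAdd_nsmul, map_pow, map_pow, mul_inv_cancel]
  let τ : P →* _ := PresentedGroup.toGroup hτrel
  have hτσ : ∀ γ, τ (σ γ) = ρ γ := by
    intro γ
    obtain ⟨x, k, rfl⟩ := hrep γ
    obtain ⟨i, j, rfl⟩ := hAdec x
    rw [map_mul, map_mul, map_mul, map_zpow, map_zpow, map_zpow, hσι, hσb, map_zpow, ofAdd_add,
      map_mul, map_mul, hρz, mul_one, ofAdd_zsmul, map_zpow, map_zpow]
    simp only [τ, genA, genB]
    erw [PresentedGroup.toGroup.of, PresentedGroup.toGroup.of]
    rfl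
  have hker : σ.ker = Z := by
    refine le_antisymm (fun γ hγ => ?_) (Subgroup.zpowers_le.2 ?_)
    · have := hτσ γ
      rw [MonoidHom.mem_ker.1 hγ, map_one] at this
      exact (QuotientGroup.eq_one_iff γ).1 this.symm
    · show σ _ = 1
      have := hσι 0 1
      simpa using this
  have hPfin : Finite P := Finite.of_surjective σ hσs
  refine ⟨hPfin, ?_, _, inferInstance, hfin, σ, ⟨hσs, ?_, ?_⟩, ?_⟩
  · refine Nat.dvd_antisymm (orderOf_dvd_of_pow_eq_one genA_pow) ?_
    have hk : ι (Multiplicative.ofAdd (((orderOf (genA m n T r) : ℕ) : ℤ) • a)) ∈ σ.ker := by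
      have := hσι (orderOf (genA m n T r) : ℕ) 0
      rw [zero_smul, add_zero, zpow_natCast, pow_orderOf_eq_one] at this
      exact this
    rw [hker] at hk
    obtain ⟨j, hj⟩ := Subgroup.mem_zpowers_iff.1 hk
    rw [← map_zpow, ← ofAdd_zsmul] at hj
    have h2 := congrArg χ (Multiplicative.ofAdd.injective (hιinj hj))
    simp [map_zsmul, hχa, hχz] at h2
    exact (ZMod.natCast_eq_zero_iff _ _).1 h2.symm
  · rw [hker]; exact Subgroup.zpowers_le.2 hzc
  · rw [hker]
    refine Subgroup.zpowers_le.2 ?_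
    have h1 : ι (Multiplicative.ofAdd z) = ⁅b, ι (Multiplicative.ofAdd ((e : ℤ) • a))⁆ := by
      rw [commutatorElement_def, hbι, ← map_inv, ← ofAdd_neg, ← map_mul, ← ofAdd_add, map_zsmul,
        hβaa]
      congr 2
      have h2 : (e : ℤ) • ((r : ℤ) • a + v • z) + -((e : ℤ) • a) =
          (s' : ℤ) • ((m : ℤ) • a) + ((e : ℤ) * v) • z := by
        rw [hs', hm']; module
      rw [h2, hmaA, smul_smul, ← add_smul,
        show (s' : ℤ) * u + (e : ℤ) * v = 1 by linear_combination huv, one_smul]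
    rw [h1]
    exact Subgroup.commutator_mem_commutator (Subgroup.mem_top _) (Subgroup.mem_top _)
  · rw [hker, Nat.card_zpowers, orderOf_injective ι hιinj, orderOf_ofAdd_eq_addOrderOf, hzg]

end MetaExt

end CfsgLib.SchurCover
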