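import Cfsg.Agent.Lib.SchurCover.Basic

set_option autoImplicit false

/-!
The multiplier of a direct product.
-/

namespace CfsgLib.SchurCover

open scoped commutatorElement TensorProduct

universe u v w

namespace ProdMult

theorem map_comm_le {X Y : Type*} [Group X] [Group Y] (f : X →* Y) {x : X}
    (hx : x ∈ commutator X) : f x ∈ commutator Y := by
  have h := Subgroup.mem_map_of_mem f hx
  rw [commutator_def, Subgroup.map_commutator] at h
  exact Subgroup.commutator_mono le_top le_top h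

variable {Q₁ : Type u} {Q₂ : Type v} [Group Q₁] [Group Q₂] {C : Type w} [CommGroup C]

/-- The central extension of `Q₁ × Q₂` by `C` given by a bimultiplicative cocycle. -/
@[ext] structure PExt (β : Q₁ →* Q₂ →* C) where
  /-- first component -/
  x : Q₁
  /-- second component -/
  y : Q₂
  /-- central component -/
  c : C

variable {β : Q₁ →* Q₂ →* C}

instance pextMul : Mul (PExt β) := ⟨fun a b => ⟨a.x * b.x, a.y * b.y, a.c * b.c * β a.x b.y⟩⟩
instance pextOne : One (PExt β) := ⟨⟨1, 1, 1⟩⟩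
instance pextInv : Inv (PExt β) := ⟨fun a => ⟨a.x⁻¹, a.y⁻¹, a.c⁻¹ * β a.x a.y⟩⟩

theorem pext_mul_def (a b : PExt β) :
    a * b = ⟨a.x * b.x, a.y * b.y, a.c * b.c * β a.x b.y⟩ := rfl
theorem pext_one_def : (1 : PExt β) = ⟨1, 1, 1⟩ := rfl
theorem pext_inv_def (a : PExt β) : a⁻¹ = ⟨a.x⁻¹, a.y⁻¹, a.c⁻¹ * β a.x a.y⟩ := rfl

instance pextGroup : Group (PExt β) where
  mul_assoc a b d := by
    ext <;> simp only [pext_mul_def, mul_assoc]
    simp only [map_mul, MonoidHom.mul_apply]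
    simp only [mul_assoc, mul_comm, mul_left_comm]
  one_mul a := by ext <;> simp [pext_mul_def, pext_one_def]
  mul_one a := by ext <;> simp [pext_mul_def, pext_one_def]
  inv_mul_cancel a := by
    ext <;> simp only [pext_mul_def, pext_inv_def, pext_one_def, inv_mul_cancel]
    simp only [map_inv, MonoidHom.inv_apply]
    rw [mul_right_comm a.c⁻¹, inv_mul_cancel, one_mul, mul_inv_cancel]

/-- Its projection. -/
def toBase (β : Q₁ →* Q₂ →* C) : PExt β →* Q₁ × Q₂ where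
  toFun a := (a.x, a.y)
  map_one' := rfl
  map_mul' _ _ := rfl

theorem toBase_ker_le : (toBase β).ker ≤ Subgroup.center (PExt β) := by
  intro a ha
  obtain ⟨hx, hy⟩ : a.x = 1 ∧ a.y = 1 := Prod.ext_iff.1 ha
  refine Subgroup.mem_center_iff.2 fun b => ?_
  ext <;> simp [pext_mul_def, hx, hy, mul_comm]

/-- The central component of an element over the identity. -/
def kerC : (toBase β).ker →* C where
  toFun a := a.1.c
  map_one' := rfl
  map_mul' a b := by
    have hx : a.1.x = 1 := (Prod.ext_iff.1 a.2).1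
    simp [pext_mul_def, hx]

theorem commutator_pext (q₁ : Q₁) (q₂ : Q₂) :
    ⁅(⟨q₁, 1, 1⟩ : PExt β), (⟨1, q₂, 1⟩ : PExt β)⁆ = ⟨1, 1, β q₁ q₂⟩ := by
  simp only [commutatorElement_def, pext_mul_def, pext_inv_def]
  ext <;> simp

/-- The bimultiplicative map to the tensor product of the abelianisations. -/
noncomputable def tensorPair (Q₁ : Type u) (Q₂ : Type v) [Group Q₁] [Group Q₂] :
    Q₁ →* Q₂ →* Multiplicative (Additive (Abelianization Q₁) ⊗[ℤ] Additive (Abelianization Q₂)) :=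
  MonoidHom.mk' (fun a => MonoidHom.mk' (fun b => Multiplicative.ofAdd
      (Additive.ofMul (Abelianization.of a) ⊗ₜ[ℤ] Additive.ofMul (Abelianization.of b)))
      fun b b' => by rw [map_mul, ofMul_mul, TensorProduct.tmul_add, ofAdd_add])
    fun a a' => MonoidHom.ext fun b => by
      simp only [MonoidHom.mk'_apply, MonoidHom.mul_apply, map_mul, ofMul_mul,
        TensorProduct.add_tmul, ofAdd_add]

/-- A bimultiplicative map factors through the tensor product of the abelianisations. -/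
theorem exists_tensor_lift (b : Q₁ →* Q₂ →* C) :
    ∃ t : Multiplicative (Additive (Abelianization Q₁) ⊗[ℤ] Additive (Abelianization Q₂)) →* C,
      ∀ q₁ q₂, t (tensorPair Q₁ Q₂ q₁ q₂) = b q₁ q₂ := by
  let b' : Abelianization Q₁ →* Abelianization Q₂ →* C :=
    Abelianization.lift
      (MonoidHom.mk' (fun a => Abelianization.lift (b a)) fun a a' =>
        Abelianization.hom_ext _ _ (MonoidHom.ext fun q => by simp))
  let F : Additive (Abelianization Q₁) →+ Additive (Abelianization Q₂) →+ Additive C :=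
    { toFun := fun a => MonoidHom.toAdditive (b' a.toMul)
      map_zero' := by ext; simp
      map_add' := fun a a' => by ext; simp }
  let L := TensorProduct.liftAddHom F fun k x y => by
    rw [map_zsmul, map_zsmul, AddMonoidHom.smul_apply]
  exact ⟨(AddMonoidHom.toMultiplicativeLeft L : _ →* C), fun q₁ q₂ => by
    simp [L, F, b', tensorPair]⟩

/-- Homomorphisms on the tensor product are determined by the pairing. -/
theorem tensor_hom_ext {D : Type*} [Monoid D]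
    {f g : Multiplicative (Additive (Abelianization Q₁) ⊗[ℤ] Additive (Abelianization Q₂)) →* D}
    (h : ∀ q₁ q₂, f (tensorPair Q₁ Q₂ q₁ q₂) = g (tensorPair Q₁ Q₂ q₁ q₂)) : f = g := by
  refine MonoidHom.ext fun w => ?_
  obtain ⟨w, rfl⟩ := Multiplicative.ofAdd.surjective w
  induction w using TensorProduct.induction_on with
  | zero => simp
  | tmul a b =>
    obtain ⟨q₁, hq₁⟩ := QuotientGroup.mk_surjective a.toMul
    obtain ⟨q₂, hq₂⟩ := QuotientGroup.mk_surjective b.toMul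
    have ha : a = Additive.ofMul (Abelianization.of q₁) := Additive.toMul.injective hq₁.symm
    have hb : b = Additive.ofMul (Abelianization.of q₂) := Additive.toMul.injective hq₂.symm
    subst ha hb
    exact h q₁ q₂
  | add x y hx hy => rw [ofAdd_add, map_mul, map_mul, hx, hy]

theorem nonempty_M0_prod (Q₁ : Type u) (Q₂ : Type v) [Group Q₁] [Group Q₂] :
    Nonempty (M0 Q₁ × M0 Q₂ ×
        Multiplicative (Additive (Abelianization Q₁) ⊗[ℤ] Additive (Abelianization Q₂)) ≃*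
      M0 (Q₁ × Q₂)) := by
  obtain ⟨i₁, hi₁⟩ := exists_hom_surj (proj (Q₁ × Q₂)) proj_surjective ker_proj_le_center
    (MonoidHom.inl Q₁ Q₂)
  obtain ⟨i₂, hi₂⟩ := exists_hom_surj (proj (Q₁ × Q₂)) proj_surjective ker_proj_le_center
    (MonoidHom.inr Q₁ Q₂)
  obtain ⟨p₁, hp₁⟩ := exists_hom_surj (proj Q₁) proj_surjective ker_proj_le_center
    (MonoidHom.fst Q₁ Q₂)
  obtain ⟨p₂, hp₂⟩ := exists_hom_surj (proj Q₂) proj_surjective ker_proj_le_center
    (MonoidHom.snd Q₁ Q₂)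
  have hi₁' : ∀ u, proj (Q₁ × Q₂) (i₁ u) = (proj Q₁ u, 1) := fun u => DFunLike.congr_fun hi₁ u
  have hi₂' : ∀ u, proj (Q₁ × Q₂) (i₂ u) = (1, proj Q₂ u) := fun u => DFunLike.congr_fun hi₂ u
  have hp₁' : ∀ u, proj Q₁ (p₁ u) = (proj (Q₁ × Q₂) u).1 := fun u => DFunLike.congr_fun hp₁ u
  have hp₂' : ∀ u, proj Q₂ (p₂ u) = (proj (Q₁ × Q₂) u).2 := fun u => DFunLike.congr_fun hp₂ u
  have hker := ker_proj_le_center (Q := Q₁ × Q₂)
  -- the pairing
  let c : Q₁ → Q₂ → M0 (Q₁ × Q₂) := fun a b => ⟨⁅sec (a, (1 : Q₂)), sec ((1 : Q₁), b)⁆,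
    mem_M0.2 ⟨by simp [commutatorElement_def],
      Subgroup.commutator_mem_commutator (Subgroup.mem_top _) (Subgroup.mem_top _)⟩⟩
  let bil : Q₁ →* Q₂ →* M0 (Q₁ × Q₂) :=
    MonoidHom.mk' (fun a => MonoidHom.mk' (c a) fun b b' => Subtype.ext <| by
      show ⁅sec (a, (1 : Q₂)), sec ((1 : Q₁), b * b')⁆ = _ * _
      rw [commutatorElement_eq_of_eq _ hker (a' := sec (a, (1 : Q₂)))
        (b' := sec ((1 : Q₁), b) * sec ((1 : Q₁), b')) rfl (by simp)]
      have h2 := M0_le_center (c a b').2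
      calc ⁅sec (a, (1 : Q₂)), sec ((1 : Q₁), b) * sec ((1 : Q₁), b')⁆
          = ⁅sec (a, (1 : Q₂)), sec ((1 : Q₁), b)⁆ *
            (sec ((1 : Q₁), b) * ((c a b' : M0 (Q₁ × Q₂)) : Univ (Q₁ × Q₂)) *
              (sec ((1 : Q₁), b))⁻¹) := by simp only [c, commutatorElement_def]; group
        _ = _ := by rw [Subgroup.mem_center_iff.1 h2, mul_inv_cancel_right])
      fun a a' => MonoidHom.ext fun b => Subtype.ext <| by
        show ⁅sec (a * a', (1 : Q₂)), sec ((1 : Q₁), b)⁆ = _ * _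
        rw [commutatorElement_eq_of_eq _ hker (b' := sec ((1 : Q₁), b))
          (a' := sec (a, (1 : Q₂)) * sec (a', (1 : Q₂))) (by simp) rfl]
        have h2 := M0_le_center (c a' b).2
        calc ⁅sec (a, (1 : Q₂)) * sec (a', (1 : Q₂)), sec ((1 : Q₁), b)⁆
            = (sec (a, (1 : Q₂)) * ((c a' b : M0 (Q₁ × Q₂)) : Univ (Q₁ × Q₂)) *
              (sec (a, (1 : Q₂)))⁻¹) * ⁅sec (a, (1 : Q₂)), sec ((1 : Q₁), b)⁆ := by
                simp only [c, commutatorElement_def]; group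
          _ = _ := by
            rw [Subgroup.mem_center_iff.1 h2, mul_inv_cancel_right]
            exact Subgroup.mem_center_iff.1 (M0_le_center (c a b).2) _
  obtain ⟨t, ht⟩ := exists_tensor_lift bil
  -- the map into the product
  let j₁ : M0 Q₁ →* M0 (Q₁ × Q₂) := (i₁.comp (M0 Q₁).subtype).codRestrict _ fun x =>
    mem_M0.2 ⟨(hi₁' x).trans (by rw [(mem_M0.1 x.2).1]; rfl),
      map_comm_le i₁ (mem_M0.1 x.2).2⟩
  let j₂ : M0 Q₂ →* M0 (Q₁ × Q₂) := (i₂.comp (M0 Q₂).subtype).codRestrict _ fun x =>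
    mem_M0.2 ⟨(hi₂' x).trans (by rw [(mem_M0.1 x.2).1]; rfl), map_comm_le i₂ (mem_M0.1 x.2).2⟩
  let Ψ := MonoidHom.coprod j₁ (MonoidHom.coprod j₂ t)
  -- the retractions
  obtain ⟨τ, hτ⟩ := exists_hom_surj (toBase (tensorPair Q₁ Q₂))
    (fun q => ⟨⟨q.1, q.2, 1⟩, rfl⟩) toBase_ker_le (MonoidHom.id (Q₁ × Q₂))
  have hτ' : ∀ u, toBase _ (τ u) = proj (Q₁ × Q₂) u := fun u => DFunLike.congr_fun hτ u
  let φ₁ : M0 (Q₁ × Q₂) →* M0 Q₁ := (p₁.comp (M0 (Q₁ × Q₂)).subtype).codRestrict _ fun x =>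
    mem_M0.2 ⟨(hp₁' x).trans (by rw [(mem_M0.1 x.2).1]; rfl),
      map_comm_le p₁ (mem_M0.1 x.2).2⟩
  let φ₂ : M0 (Q₁ × Q₂) →* M0 Q₂ := (p₂.comp (M0 (Q₁ × Q₂)).subtype).codRestrict _ fun x =>
    mem_M0.2 ⟨(hp₂' x).trans (by rw [(mem_M0.1 x.2).1]; rfl),
      map_comm_le p₂ (mem_M0.1 x.2).2⟩
  let φT := (kerC (β := tensorPair Q₁ Q₂)).comp
    ((τ.comp (M0 (Q₁ × Q₂)).subtype).codRestrict _ fun x => (hτ' x).trans (mem_M0.1 x.2).1)
  have h₁₁ : ∀ a : M0 Q₁, φ₁ (j₁ a) = a := fun a => Subtype.ext <|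
    eq_on_commutator (proj Q₁) ker_proj_le_center (f := p₁.comp i₁) (g := MonoidHom.id _)
      (fun x => by simp [hp₁', hi₁']) (mem_M0.1 a.2).2
  have h₁₂ : ∀ b : M0 Q₂, φ₁ (j₂ b) = 1 := fun b => Subtype.ext <|
    eq_on_commutator (proj Q₁) ker_proj_le_center (f := p₁.comp i₂) (g := 1)
      (fun x => by simp [hp₁', hi₂']) (mem_M0.1 b.2).2
  have h₂₁ : ∀ a : M0 Q₁, φ₂ (j₁ a) = 1 := fun a => Subtype.ext <|
    eq_on_commutator (proj Q₂) ker_proj_le_center (f := p₂.comp i₁) (g := 1)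
      (fun x => by simp [hp₂', hi₁']) (mem_M0.1 a.2).2
  have h₂₂ : ∀ b : M0 Q₂, φ₂ (j₂ b) = b := fun b => Subtype.ext <|
    eq_on_commutator (proj Q₂) ker_proj_le_center (f := p₂.comp i₂) (g := MonoidHom.id _)
      (fun x => by simp [hp₂', hi₂']) (mem_M0.1 b.2).2
  have h₁T : φ₁.comp t = 1 := tensor_hom_ext fun q₁ q₂ => Subtype.ext <| by
    rw [MonoidHom.comp_apply, ht]
    show p₁ ⁅sec (q₁, (1 : Q₂)), sec ((1 : Q₁), q₂)⁆ = 1
    rw [map_commutatorElement p₁, commutatorElement_eq_of_eq (proj Q₁) ker_proj_le_center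
      (a' := p₁ (sec (q₁, (1 : Q₂)))) (b' := 1) rfl (by simp [hp₁']), commutatorElement_one_right]
  have h₂T : φ₂.comp t = 1 := tensor_hom_ext fun q₁ q₂ => Subtype.ext <| by
    rw [MonoidHom.comp_apply, ht]
    show p₂ ⁅sec (q₁, (1 : Q₂)), sec ((1 : Q₁), q₂)⁆ = 1
    rw [map_commutatorElement p₂, commutatorElement_eq_of_eq (proj Q₂) ker_proj_le_center
      (b' := p₂ (sec ((1 : Q₁), q₂))) (a' := 1) (by simp [hp₂']) rfl, commutatorElement_one_left]
  have hTT : φT.comp t = MonoidHom.id _ := tensor_hom_ext fun q₁ q₂ => by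
    rw [MonoidHom.comp_apply, ht, MonoidHom.id_apply]
    show (τ ⁅sec (q₁, (1 : Q₂)), sec ((1 : Q₁), q₂)⁆).c = _
    rw [map_commutatorElement τ, commutatorElement_eq_of_eq _ toBase_ker_le
      (a := τ (sec (q₁, (1 : Q₂)))) (b := τ (sec ((1 : Q₁), q₂)))
      (a' := (⟨q₁, 1, 1⟩ : PExt (tensorPair Q₁ Q₂))) (b' := ⟨1, q₂, 1⟩)
      ((hτ' _).trans (proj_sec _)) ((hτ' _).trans (proj_sec _)), commutator_pext]
  have hT₁ : ∀ a : M0 Q₁, φT (j₁ a) = 1 := fun a => by
    let e₁ : Q₁ →* PExt (tensorPair Q₁ Q₂) := MonoidHom.mk' (fun q => ⟨q, 1, 1⟩) fun q q' => by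
      ext <;> simp [pext_mul_def]
    have := eq_on_commutator _ toBase_ker_le (f := τ.comp i₁) (g := e₁.comp (proj Q₁))
      (fun x => by rw [MonoidHom.comp_apply, hτ', hi₁']; rfl) (mem_M0.1 a.2).2
    show (τ (i₁ a)).c = 1
    simp only [MonoidHom.comp_apply] at this
    rw [this]
    rfl
  have hT₂ : ∀ b : M0 Q₂, φT (j₂ b) = 1 := fun b => by
    let e₂ : Q₂ →* PExt (tensorPair Q₁ Q₂) := MonoidHom.mk' (fun q => ⟨1, q, 1⟩) fun q q' => by
      ext <;> simp [pext_mul_def]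
    have := eq_on_commutator _ toBase_ker_le (f := τ.comp i₂) (g := e₂.comp (proj Q₂))
      (fun x => by rw [MonoidHom.comp_apply, hτ', hi₂']; rfl) (mem_M0.1 b.2).2
    show (τ (i₂ b)).c = 1
    simp only [MonoidHom.comp_apply] at this
    rw [this]
    rfl
  have hinj : Function.Injective Ψ := by
    rw [injective_iff_map_eq_one Ψ]
    rintro ⟨a, b, e⟩ h
    have h' : j₁ a * (j₂ b * t e) = 1 := h
    have e1 := congrArg φ₁ h'
    have e2 := congrArg φ₂ h'
    have e3 := congrArg φT h'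
    simp only [map_mul, map_one, h₁₁, h₁₂, show φ₁ (t e) = 1 from DFunLike.congr_fun h₁T e,
      mul_one] at e1
    simp only [map_mul, map_one, h₂₁, h₂₂, show φ₂ (t e) = 1 from DFunLike.congr_fun h₂T e,
      mul_one, one_mul] at e2
    simp only [map_mul, map_one, hT₁, hT₂, show φT (t e) = e from DFunLike.congr_fun hTT e,
      one_mul] at e3
    rw [e1, e2, e3]
    rfl
  -- surjectivity
  have hsurj : Function.Surjective Ψ := by
    let T' : Subgroup (Univ (Q₁ × Q₂)) := t.range.map (M0 (Q₁ × Q₂)).subtype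
    have hT'c : T' ≤ Subgroup.center _ := (Subgroup.map_subtype_le _).trans M0_le_center
    have hT'n : T'.Normal := ⟨fun x hx w => by
      rw [Subgroup.mem_center_iff.1 (hT'c hx) w, mul_inv_cancel_right]; exact hx⟩
    let π := QuotientGroup.mk' T'
    let σ : Univ (Q₁ × Q₂) ⧸ T' →* Q₁ × Q₂ := QuotientGroup.lift T' (proj (Q₁ × Q₂))
      ((Subgroup.map_subtype_le _).trans inf_le_left)
    have hσc : σ.ker ≤ Subgroup.center _ := by
      intro x hx
      obtain ⟨x, rfl⟩ := QuotientGroup.mk'_surjective _ x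
      refine Subgroup.mem_center_iff.2 fun y => ?_
      obtain ⟨y, rfl⟩ := QuotientGroup.mk'_surjective _ y
      rw [← map_mul, ← map_mul, Subgroup.mem_center_iff.1 (hker (show x ∈ (proj _).ker from hx)) y]
    have hcomm : ∀ (x : Univ Q₁) (y : Univ Q₂), Commute ((π.comp i₁) x) ((π.comp i₂) y) := by
      intro x y
      refine commutatorElement_eq_one_iff_mul_comm.1 ?_
      rw [MonoidHom.comp_apply, MonoidHom.comp_apply, ← map_commutatorElement,
        commutatorElement_eq_of_eq _ hker (a' := sec (proj Q₁ x, (1 : Q₂)))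
          (b' := sec ((1 : Q₁), proj Q₂ y)) (by rw [hi₁', proj_sec]) (by rw [hi₂', proj_sec])]
      refine (QuotientGroup.eq_one_iff _).2 ⟨bil (proj Q₁ x) (proj Q₂ y), ⟨_, ht _ _⟩, rfl⟩
    let θ := MonoidHom.noncommCoprod (π.comp i₁) (π.comp i₂) hcomm
    intro w
    have hw : π w ∈ (commutator (Univ Q₁ × Univ Q₂)).map θ := by
      refine commutator_le_map σ hσc θ (fun g => ?_)
        (map_comm_le π (mem_M0.1 w.2).2)
      refine ⟨(sec (σ g).1, sec (σ g).2), ?_⟩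
      show proj _ (i₁ _ * i₂ _) = _
      rw [map_mul, hi₁', hi₂', proj_sec, proj_sec]
      simp
    obtain ⟨⟨x, y⟩, hxy, hθ⟩ := hw
    have hx : x ∈ commutator (Univ Q₁) :=
      map_comm_le (MonoidHom.fst (Univ Q₁) (Univ Q₂)) hxy
    have hy : y ∈ commutator (Univ Q₂) :=
      map_comm_le (MonoidHom.snd (Univ Q₁) (Univ Q₂)) hxy
    have h1 : proj (Q₁ × Q₂) (i₁ x * i₂ y) = proj (Q₁ × Q₂) w := congrArg σ hθ
    rw [map_mul, hi₁', hi₂', (mem_M0.1 w.2).1] at h1
    obtain ⟨hx1, hy1⟩ : proj Q₁ x = 1 ∧ proj Q₂ y = 1 := by simpa using Prod.ext_iff.1 h1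
    have hd : (i₁ x * i₂ y)⁻¹ * w ∈ T' := QuotientGroup.eq.1 hθ
    obtain ⟨z, ⟨e, rfl⟩, he⟩ := hd
    refine ⟨(⟨x, mem_M0.2 ⟨hx1, hx⟩⟩, ⟨y, mem_M0.2 ⟨hy1, hy⟩⟩, e), Subtype.ext ?_⟩
    show i₁ x * (i₂ y * (t e : Univ (Q₁ × Q₂))) = w
    rw [show ((t e : M0 (Q₁ × Q₂)) : Univ (Q₁ × Q₂)) = _ from he]
    group
  exact ⟨MulEquiv.ofBijective Ψ ⟨hinj, hsurj⟩⟩

end ProdMult

end CfsgLib.SchurCover
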