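import Cfsg.Agent.Lib.SchurCover.Cover

set_option autoImplicit false

/-!
Monomial representations of central extensions, and lifting projective representations.
-/

namespace CfsgLib.SchurCover

open scoped Matrix

universe u v

theorem center_rootable (n : ℕ) (k : ℕ) (hk : k ≠ 0) (a : Subgroup.center (GL (Fin n) ℂ)) :
    ∃ b : Subgroup.center (GL (Fin n) ℂ), b ^ k = a := by
  obtain ⟨a, ha⟩ := a
  have ha' := ha
  rw [Matrix.GeneralLinearGroup.center_eq_range_scalar] at ha'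
  obtain ⟨r, rfl⟩ := ha'
  obtain ⟨s, hs⟩ := IsAlgClosed.exists_pow_nat_eq (r : ℂ) (Nat.pos_of_ne_zero hk)
  have hs0 : s ≠ 0 := fun h => by
    rw [h, zero_pow hk] at hs
    exact r.ne_zero hs.symm
  refine ⟨⟨Matrix.GeneralLinearGroup.scalar (Fin n) (Units.mk0 s hs0), ?_⟩, Subtype.ext ?_⟩
  · rw [Matrix.GeneralLinearGroup.center_eq_range_scalar]; exact ⟨_, rfl⟩
  · show Matrix.GeneralLinearGroup.scalar (Fin n) (Units.mk0 s hs0) ^ k = _
    rw [← map_pow]
    congr 1
    exact Units.ext hs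

/-- The monomial representation induced from a character of the kernel of an extension. -/
theorem exists_monomial {Q : Type u} [Group Q] [Finite Q] {Γ : Type v} [Group Γ] (σ : Γ →* Q)
    (hs : Function.Surjective σ) (hc : σ.ker ≤ Subgroup.center Γ) (φ : σ.ker →* ℂˣ) :
    ∃ ρ : Γ →* GL (Fin (Nat.card Q)) ℂ,
      ∀ k : σ.ker, ρ k = Matrix.GeneralLinearGroup.scalar (Fin (Nat.card Q)) (φ k) := by
  classical
  let e : Fin (Nat.card Q) ≃ Q := (Finite.equivFin Q).symm
  choose s hs' using hs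
  let z : Γ → Q → σ.ker := fun g q => ⟨(s (σ g * q))⁻¹ * g * s q, by
    rw [MonoidHom.mem_ker, map_mul, map_mul, map_inv, hs', hs']; group⟩
  have hz : ∀ g h q, z (g * h) q = z g (σ h * q) * z h q := fun g h q => by
    apply Subtype.ext
    show (s (σ (g * h) * q))⁻¹ * (g * h) * s q =
      (s (σ g * (σ h * q)))⁻¹ * g * s (σ h * q) * ((s (σ h * q))⁻¹ * h * s q)
    rw [map_mul, mul_assoc (σ g)]
    group
  let M : Γ → Matrix (Fin (Nat.card Q)) (Fin (Nat.card Q)) ℂ := fun g =>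
    Matrix.of fun i j => if e i = σ g * e j then ((φ (z g (e j)) : ℂˣ) : ℂ) else 0
  have hmul : ∀ g h, M (g * h) = M g * M h := fun g h => by
    ext i j
    simp only [M, Matrix.mul_apply, Matrix.of_apply]
    rw [Finset.sum_eq_single (e.symm (σ h * e j))]
    · simp only [Equiv.apply_symm_apply, map_mul, mul_assoc, if_true]
      by_cases hi : e i = σ g * (σ h * e j)
      · rw [if_pos hi, if_pos hi, ← Units.val_mul, ← map_mul, hz]
      · rw [if_neg hi, if_neg hi, zero_mul]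
    · intro l _ hl
      rw [if_neg (fun h' : e l = σ h * e j => hl (by rw [← h', Equiv.symm_apply_apply])), mul_zero]
    · simp
  have hker : ∀ k : σ.ker, M k = Matrix.scalar (Fin (Nat.card Q)) ((φ k : ℂˣ) : ℂ) := fun k => by
    ext i j
    have hk : σ (k : Γ) = 1 := k.2
    have hzk : z k (e j) = k := Subtype.ext (by
      show (s (σ (k : Γ) * e j))⁻¹ * k * s (e j) = k
      rw [hk, one_mul, mul_assoc, ← Subgroup.mem_center_iff.1 (hc k.2) (s (e j)),
        inv_mul_cancel_left])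
    simp only [M, Matrix.of_apply, Matrix.scalar_apply, Matrix.diagonal_apply, hk, one_mul, hzk,
      e.injective.eq_iff]
  have h1 : M 1 = 1 := by
    have := hker 1
    rwa [map_one, Units.val_one, map_one] at this
  let F : Γ →* Matrix (Fin (Nat.card Q)) (Fin (Nat.card Q)) ℂ :=
    { toFun := M, map_one' := h1, map_mul' := hmul }
  exact ⟨F.toHomUnits, fun k => Units.ext (hker k)⟩

/-- A stem extension in which all projective representations lift is a Schur cover. -/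
theorem kerMap_bijective_of_lifts {Q : Type u} [Group Q] [Finite Q] {Γ : Type v} [Group Γ]
    (σ : Γ →* Q) (hσ : Cfsg.IsStemExtension σ)
    (hlift : ∀ (n : ℕ) (γ : Q →* (GL (Fin n) ℂ ⧸ Subgroup.center (GL (Fin n) ℂ))),
      ∃ ρ : Γ →* GL (Fin n) ℂ,
        (QuotientGroup.mk' (Subgroup.center (GL (Fin n) ℂ))).comp ρ = γ.comp σ)
    (f : Univ Q →* Γ) (hf : σ.comp f = proj Q) : Function.Bijective (kerMap σ f hf) := by
  refine ⟨?_, kerMap_surjective σ hσ f hf⟩
  obtain ⟨Γ₀, i₁, i₂, σ₀, f₀, hf₀, hσ₀, hb⟩ := exists_cover (Q := Q)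
  rw [← MonoidHom.ker_eq_bot_iff, Subgroup.eq_bot_iff_forall]
  intro x hx
  by_contra hne
  let E := MulEquiv.ofBijective _ hb
  obtain ⟨φ, hφ⟩ := CommGroup.exists_apply_ne_one_of_hasEnoughRootsOfUnity (M0 Q) ℂ hne
  obtain ⟨ρ₀, hρ₀⟩ := exists_monomial σ₀ hσ₀.1 hσ₀.2.1 (φ.comp E.symm.toMonoidHom)
  let π := QuotientGroup.mk' (Subgroup.center (GL (Fin (Nat.card Q)) ℂ))
  have hle : σ₀.ker ≤ (π.comp ρ₀).ker := fun k hk => by
    rw [MonoidHom.mem_ker, MonoidHom.comp_apply, hρ₀ ⟨k, hk⟩, ← MonoidHom.mem_ker,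
      QuotientGroup.ker_mk', Matrix.GeneralLinearGroup.center_eq_range_scalar]
    exact ⟨_, rfl⟩
  let γ := σ₀.liftOfSurjective hσ₀.1 ⟨π.comp ρ₀, hle⟩
  have hγ : ∀ g, γ (σ₀ g) = π (ρ₀ g) := fun g =>
    σ₀.liftOfRightInverse_comp_apply _ (Function.rightInverse_surjInv hσ₀.1) ⟨π.comp ρ₀, hle⟩ g
  obtain ⟨ρ, hρ⟩ := hlift _ γ
  have key : (ρ.comp f) (x : Univ Q) = (ρ₀.comp f₀) x := by
    refine eq_on_commutator π (by rw [QuotientGroup.ker_mk']) (fun y => ?_) x.2.2
    have h1 : π (ρ (f y)) = γ (σ (f y)) := DFunLike.congr_fun hρ (f y)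
    show π (ρ (f y)) = π (ρ₀ (f₀ y))
    have e1 : σ (f y) = proj Q y := DFunLike.congr_fun hf y
    have e2 : σ₀ (f₀ y) = proj Q y := DFunLike.congr_fun hf₀ y
    rw [h1, ← hγ, e1, e2]
  have h1 : f (x : Univ Q) = 1 := congrArg Subtype.val (MonoidHom.mem_ker.1 hx)
  have h2 : ρ₀ (f₀ x) = Matrix.GeneralLinearGroup.scalar _ (φ x) := by
    have := hρ₀ (E x)
    rw [MonoidHom.comp_apply, MulEquiv.coe_toMonoidHom, E.symm_apply_apply] at this
    exact this
  rw [MonoidHom.comp_apply, MonoidHom.comp_apply, h1, map_one, h2] at key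
  have : Nonempty (Fin (Nat.card Q)) := ⟨⟨0, Nat.card_pos⟩⟩
  refine hφ (Units.ext ?_)
  have h3 := congrArg (fun M : GL (Fin (Nat.card Q)) ℂ =>
    (M : Matrix (Fin (Nat.card Q)) (Fin (Nat.card Q)) ℂ) ⟨0, Nat.card_pos⟩ ⟨0, Nat.card_pos⟩) key
  simpa using h3.symm

/-- Projective representations lift to a Schur cover. -/
theorem exists_projective_lift {Q : Type u} [Group Q] {Γ : Type v} [Group Γ]
    (σ : Γ →* Q) (hσ : Cfsg.IsStemExtension σ) (f : Univ Q →* Γ) (hf : σ.comp f = proj Q)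
    (hb : Function.Bijective (kerMap σ f hf))
    {X : Type*} [Group X] (hdiv : ∀ k : ℕ, k ≠ 0 → ∀ a : Subgroup.center X,
      ∃ b : Subgroup.center X, b ^ k = a) (γ : Q →* X ⧸ Subgroup.center X) :
    ∃ ρ : Γ →* X, (QuotientGroup.mk' (Subgroup.center X)).comp ρ = γ.comp σ := by
  let π := QuotientGroup.mk' (Subgroup.center X)
  obtain ⟨ρ₀, hρ₀⟩ := exists_hom_surj (Q := Q) π (QuotientGroup.mk'_surjective _)
    (by rw [QuotientGroup.ker_mk']) γ
  have hC : f.ker ≤ (proj Q).ker := fun x hx => by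
    rw [MonoidHom.mem_ker, ← hf, MonoidHom.comp_apply, MonoidHom.mem_ker.1 hx, map_one]
  have hCD : f.ker ⊓ commutator (Univ Q) = ⊥ := (Subgroup.eq_bot_iff_forall _).2 fun x hx => by
    have : (⟨x, hC hx.1, hx.2⟩ : M0 Q) = 1 := hb.1 (by
      rw [map_one]; exact Subtype.ext hx.1)
    exact congrArg Subtype.val this
  have hmem : ∀ c : f.ker, ρ₀ c ∈ Subgroup.center X := fun c => by
    rw [← QuotientGroup.ker_mk' (Subgroup.center X), MonoidHom.mem_ker]
    have := DFunLike.congr_fun hρ₀ (c : Univ Q)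
    rw [MonoidHom.comp_apply, MonoidHom.comp_apply, MonoidHom.mem_ker.1 (hC c.2), map_one] at this
    exact this
  let : CommGroup (Subgroup.center X) :=
    { (inferInstance : Group (Subgroup.center X)) with
      mul_comm := fun a b => Subtype.ext (Subgroup.mem_center_iff.1 b.2 a) }
  obtain ⟨μ, hμ⟩ := exists_extension hdiv f.ker hCD
    ((ρ₀.comp f.ker.subtype).codRestrict (Subgroup.center X) hmem)
  let ρ' : Univ Q →* X := MonoidHom.mk' (fun y => ρ₀ y * ((μ y : X))⁻¹) fun a b => by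
    simp only [map_mul, Subgroup.coe_mul, mul_inv_rev]
    have hc := Subgroup.mem_center_iff.1 ((Subgroup.center X).inv_mem (μ a).2)
    rw [mul_assoc (ρ₀ a) (μ a : X)⁻¹, ← hc (ρ₀ b * (μ b : X)⁻¹)]
    simp only [mul_assoc]
  have hρ' : f.ker ≤ ρ'.ker := fun c hc => by
    show ρ₀ c * (μ c : X)⁻¹ = 1
    rw [hμ ⟨c, hc⟩]
    exact mul_inv_cancel _
  have hfs : Function.Surjective f :=
    stem_lift_surjective σ hσ f (by rw [hf]; exact proj_surjective)
  let ρ := f.liftOfSurjective hfs ⟨ρ', hρ'⟩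
  have hρ : ∀ y, ρ (f y) = ρ' y := fun y =>
    f.liftOfRightInverse_comp_apply _ (Function.rightInverse_surjInv hfs) ⟨ρ', hρ'⟩ y
  refine ⟨ρ, MonoidHom.ext fun g => ?_⟩
  obtain ⟨y, rfl⟩ := hfs g
  show π (ρ (f y)) = γ (σ (f y))
  rw [hρ]
  show π (ρ₀ y * (μ y : X)⁻¹) = _
  have h1 : π (μ y : X) = 1 := (QuotientGroup.eq_one_iff _).2 (μ y).2
  rw [map_mul, map_inv, h1, inv_one, mul_one, ← MonoidHom.comp_apply σ f, hf]
  exact DFunLike.congr_fun hρ₀ y

end CfsgLib.SchurCover
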