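import Cfsg.Agent.Lib.SchurCover.Basic

set_option autoImplicit false

/-!
The corestriction `M0 G →* M0 U` for a subgroup `U` of a finite group `G`.
-/

namespace CfsgLib.SchurCover

open scoped IsMulCommutative commutatorElement

universe u

variable {G : Type u} [Group G] (U : Subgroup G)

/-- Preimage of `U` in the free group. -/
def preimage : Subgroup (FreeGroup G) := U.comap (eval G)

theorem exists_psi : ∃ ψ : preimage U →* Univ U, ∀ x : preimage U,
    ((proj U (ψ x) : U) : G) = eval G x := by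
  let γ : preimage U →* U := (eval G).subgroupComap U
  let ψ : preimage U →* Univ U :=
    IsFreeGroup.lift fun i => sec (γ (IsFreeGroup.of (G := preimage U) i))
  have h : (proj U).comp ψ = γ := IsFreeGroup.ext_hom (fun i => by simp [ψ])
  exact ⟨ψ, fun x => congrArg Subtype.val (DFunLike.congr_fun h x)⟩

/-- Lifts of coset representatives. -/
noncomputable def rep (q : G ⧸ U) : FreeGroup G := FreeGroup.of q.out

@[simp] theorem eval_rep (q : G ⧸ U) : eval G (rep U q) = q.out := by
  simp [rep, eval]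

theorem cocycle_mem (f : FreeGroup G) (q : G ⧸ U) :
    (rep U (eval G f • q))⁻¹ * f * rep U q ∈ preimage U := by
  show eval G _ ∈ U
  rw [map_mul, map_mul, map_inv, eval_rep, eval_rep, mul_assoc, ← QuotientGroup.eq]
  rw [QuotientGroup.out_eq', show ((eval G f * q.out : G) : G ⧸ U) = eval G f • (q.out : G ⧸ U)
    from rfl, QuotientGroup.out_eq']

/-- The cocycle of coset representatives. -/
noncomputable def cocycle (f : FreeGroup G) (q : G ⧸ U) : preimage U :=
  ⟨(rep U (eval G f • q))⁻¹ * f * rep U q, cocycle_mem U f q⟩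

theorem cocycle_mul (f g : FreeGroup G) (q : G ⧸ U) :
    cocycle U (f * g) q = cocycle U f (eval G g • q) * cocycle U g q := by
  apply Subtype.ext
  show _ = _ * _
  simp only [cocycle, map_mul, mul_smul]
  group

theorem eval_cocycle_of_ker {r : FreeGroup G} (hr : r ∈ (eval G).ker) (q : G ⧸ U) :
    eval G (cocycle U r q) = 1 := by
  show eval G ((rep U (eval G r • q))⁻¹ * r * rep U q) = 1
  rw [map_mul, map_mul, map_inv, MonoidHom.mem_ker.1 hr, one_smul, mul_one, inv_mul_cancel]

variable [Finite G]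

theorem exists_transfer {A : Type*} [CommGroup A] (φ : preimage U →* A) :
    ∃ V : FreeGroup G →* A, ∀ f, V f = ∏ᶠ q : G ⧸ U, φ (cocycle U f q) := by
  classical
  have : Fintype (G ⧸ U) := Fintype.ofFinite _
  refine ⟨MonoidHom.mk' (fun f => ∏ q : G ⧸ U, φ (cocycle U f q)) fun f g => ?_, fun f => ?_⟩
  · simp only [cocycle_mul, map_mul, Finset.prod_mul_distrib]
    congr 1
    exact Fintype.prod_equiv (MulAction.toPerm (eval G g)) _ _ fun q => rfl
  · exact (finprod_eq_prod_of_fintype _).symm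

/-- The corestriction together with its defining property against a restriction map. -/
theorem exists_cor : ∃ (res : M0 U →* M0 G) (cor : M0 G →* M0 U),
    ∀ z, res (cor z) = z ^ U.index := by
  classical
  have : Fintype (G ⧸ U) := Fintype.ofFinite _
  obtain ⟨ψ, hψ⟩ := exists_psi U
  obtain ⟨j, hj⟩ := exists_hom_surj (Q := U) (proj G) proj_surjective ker_proj_le_center U.subtype
  have hj1 : ∀ x : Univ U, proj G (j x) = (proj U x : U) := DFunLike.congr_fun hj
  have hκ : ∀ (r : (eval G).ker) (q : G ⧸ U), ψ (cocycle U r q) ∈ (proj U).ker := fun r q =>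
    MonoidHom.mem_ker.2 (Subtype.ext ((hψ _).trans (eval_cocycle_of_ker U r.2 q)))
  -- the product over the cosets
  let χ : (eval G).ker →* (proj U).ker :=
    MonoidHom.mk' (fun r => ∏ q : G ⧸ U, ⟨ψ (cocycle U r q), hκ r q⟩) fun a b => by
      rw [← Finset.prod_mul_distrib]
      refine Finset.prod_congr rfl fun q _ => Subtype.ext ?_
      show ψ (cocycle U ((a : FreeGroup G) * b) q) = ψ (cocycle U a q) * ψ (cocycle U b q)
      rw [cocycle_mul, MonoidHom.mem_ker.1 b.2, one_smul, map_mul]
  have hconj : ∀ (f : FreeGroup G) (r : (eval G).ker),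
      χ ⟨f * r * f⁻¹, (inferInstance : (eval G).ker.Normal).conj_mem _ r.2 f⟩ = χ r := by
    intro f r
    refine (Fintype.prod_equiv (MulAction.toPerm (eval G f)) _ _ fun q => Subtype.ext ?_).symm
    show ψ (cocycle U r q) = ψ (cocycle U (f * r * f⁻¹) (eval G f • q))
    have h1 : cocycle U (f * r * f⁻¹) (eval G f • q)
        = cocycle U f q * cocycle U r q * (cocycle U f q)⁻¹ := by
      apply Subtype.ext
      show _ = _ * _ * _⁻¹
      simp only [cocycle, map_mul, MonoidHom.mem_ker.1 r.2, mul_one, map_inv, mul_inv_cancel,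
        one_smul]
      group
    rw [h1, map_mul, map_mul, Subgroup.mem_center_iff.1 (ker_proj_le_center (hκ r q)),
      map_inv, mul_inv_cancel_right]
  have hrel : rel G ≤ χ.ker.map (eval G).ker.subtype := by
    rw [rel, Subgroup.commutator_le]
    intro r hr f _
    refine ⟨⟨r, hr⟩ * ⟨f * r⁻¹ * f⁻¹,
      (inferInstance : (eval G).ker.Normal).conj_mem _ ((eval G).ker.inv_mem hr) f⟩, ?_, ?_⟩
    · rw [SetLike.mem_coe, MonoidHom.mem_ker, map_mul, hconj f ⟨r⁻¹, (eval G).ker.inv_mem hr⟩,
        ← map_mul]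
      convert map_one χ
      exact Subtype.ext (mul_inv_cancel r)
    · show r * (f * r⁻¹ * f⁻¹) = ⁅r, f⁆
      rw [commutatorElement_def]
      group
  let W : Subgroup (FreeGroup G) := (eval G).ker ⊓ commutator (FreeGroup G)
  have hχW : ∀ w : W, ((χ ⟨w, w.2.1⟩ : (proj U).ker) : Univ U) ∈ M0 U := by
    intro w
    refine ⟨(χ ⟨w, w.2.1⟩).2, ?_⟩
    rw [← expSum_ker]
    show expSum U _ = 1
    obtain ⟨V, hV⟩ := exists_transfer U ((expSum U).comp ψ)
    have h0 : V w = 1 := MonoidHom.mem_ker.1 (Abelianization.commutator_subset_ker V w.2.2)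
    rw [hV, finprod_eq_prod_of_fintype] at h0
    have h1 := map_prod ((expSum U).comp (proj U).ker.subtype)
      (fun q : G ⧸ U => (⟨ψ (cocycle U w q), hκ ⟨w, w.2.1⟩ q⟩ : (proj U).ker)) Finset.univ
    exact h1.trans h0
  let cor₀ : W →* M0 U :=
    ((proj U).ker.subtype.comp (χ.comp (Subgroup.inclusion inf_le_left))).codRestrict (M0 U)
      (fun w => hχW w)
  let q₀ : W →* M0 G := ((QuotientGroup.mk' (rel G)).comp W.subtype).codRestrict (M0 G) fun w =>
    ⟨w.2.1, by
      have : (QuotientGroup.mk' (rel G)) (w : FreeGroup G) ∈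
          (commutator (FreeGroup G)).map (QuotientGroup.mk' (rel G)) :=
        Subgroup.mem_map_of_mem _ w.2.2
      rw [map_commutator_eq] at this
      exact Subgroup.commutator_mono le_top le_top this⟩
  have hq₀ : Function.Surjective q₀ := by
    rintro ⟨z, hz1, hz2⟩
    have : z ∈ (commutator (FreeGroup G)).map (QuotientGroup.mk' (rel G)) := by
      rw [map_commutator_eq, MonoidHom.range_eq_top.2 (QuotientGroup.mk'_surjective _)]
      exact hz2
    obtain ⟨w, hw, rfl⟩ := this
    exact ⟨⟨w, hz1, hw⟩, rfl⟩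
  have hker : q₀.ker ≤ cor₀.ker := fun w hw => by
    have h1 : (w : FreeGroup G) ∈ rel G :=
      (QuotientGroup.eq_one_iff _).1 (Subtype.ext_iff.1 hw)
    obtain ⟨r, hr, hrw⟩ := hrel h1
    have hrw' : r = ⟨w, w.2.1⟩ := Subtype.ext hrw
    subst hrw'
    rw [MonoidHom.mem_ker]
    apply Subtype.ext
    have hr' : χ ⟨w, w.2.1⟩ = 1 := hr
    exact congrArg (fun k : (proj U).ker => (k : Univ U)) hr'
  let cor := q₀.liftOfSurjective hq₀ ⟨cor₀, hker⟩
  let res : M0 U →* M0 G := (j.comp (M0 U).subtype).codRestrict (M0 G) fun x => by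
    refine ⟨?_, ?_⟩
    · show proj G (j x) = 1
      rw [hj1, MonoidHom.mem_ker.1 x.2.1]
      rfl
    · have : j x ∈ (commutator (Univ U)).map j := Subgroup.mem_map_of_mem _ x.2.2
      rw [map_commutator_eq] at this
      exact Subgroup.commutator_mono le_top le_top this
  refine ⟨res, cor, fun z => ?_⟩
  obtain ⟨w, rfl⟩ := hq₀ z
  have hcor : cor (q₀ w) = cor₀ w :=
    q₀.liftOfRightInverse_comp_apply _ (Function.rightInverse_surjInv hq₀) ⟨cor₀, hker⟩ w
  rw [hcor]
  -- the discrepancy of the two lifts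
  have hδ : ∀ x : preimage U, j (ψ x) * ((QuotientGroup.mk' (rel G)) x)⁻¹ ∈ (proj G).ker := fun x => by
    rw [MonoidHom.mem_ker, map_mul, map_inv, hj1, hψ]
    exact mul_inv_cancel _
  let δ : preimage U →* (proj G).ker :=
    MonoidHom.mk' (fun x => ⟨j (ψ x) * ((QuotientGroup.mk' (rel G)) x)⁻¹, hδ x⟩) fun a b => by
      apply Subtype.ext
      show j (ψ (a * b)) * ((QuotientGroup.mk' (rel G)) ((a : FreeGroup G) * b))⁻¹ = _ * _
      rw [map_mul, map_mul, map_mul, mul_inv_rev]
      have hc := Subgroup.mem_center_iff.1 (ker_proj_le_center (hδ b))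
      rw [mul_assoc (j (ψ a)) ((QuotientGroup.mk' (rel G)) a)⁻¹, hc ((QuotientGroup.mk' (rel G)) a)⁻¹]
      simp only [mul_assoc]
  obtain ⟨V, hV⟩ := exists_transfer U δ
  have h0 : V w = 1 := MonoidHom.mem_ker.1 (Abelianization.commutator_subset_ker V w.2.2)
  rw [hV, finprod_eq_prod_of_fintype] at h0
  have hmk : ∀ q : G ⧸ U,
      (QuotientGroup.mk' (rel G)) (cocycle U (w : FreeGroup G) q : FreeGroup G) = (q₀ w : Univ G) := by
    intro q
    show (QuotientGroup.mk' (rel G)) ((rep U (eval G (w : FreeGroup G) • q))⁻¹ * w * rep U q) = _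
    rw [MonoidHom.mem_ker.1 w.2.1, one_smul, map_mul, map_mul, map_inv, mul_assoc]
    have hc : (QuotientGroup.mk' (rel G)) (rep U q) * (QuotientGroup.mk' (rel G)) (w : FreeGroup G)
        = (QuotientGroup.mk' (rel G)) (w : FreeGroup G) * (QuotientGroup.mk' (rel G)) (rep U q) :=
      Subgroup.mem_center_iff.1 (M0_le_center (q₀ w).2) _
    rw [← hc]
    exact inv_mul_cancel_left _ _
  let zK : (proj G).ker := ⟨q₀ w, (q₀ w).2.1⟩
  let jK : (proj U).ker →* (proj G).ker := (j.comp (proj U).ker.subtype).codRestrict _ fun x => by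
    show proj G (j x) = 1
    rw [hj1, MonoidHom.mem_ker.1 x.2]
    rfl
  have hterm : ∀ q : G ⧸ U,
      jK ⟨ψ (cocycle U w q), hκ ⟨w, w.2.1⟩ q⟩ = δ (cocycle U w q) * zK := fun q => Subtype.ext (by
    show j (ψ (cocycle U w q)) = j (ψ (cocycle U w q)) * _⁻¹ * (q₀ w : Univ G)
    rw [hmk, inv_mul_cancel_right])
  have hfinal : jK (χ ⟨w, w.2.1⟩) = zK ^ U.index := by
    show jK (∏ q : G ⧸ U, _) = _
    rw [map_prod, Finset.prod_congr rfl (fun q _ => hterm q), Finset.prod_mul_distrib, h0, one_mul,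
      Finset.prod_const, Finset.card_univ, Subgroup.index_eq_card, Nat.card_eq_fintype_card]
  apply Subtype.ext
  have := congrArg Subtype.val hfinal
  rw [SubmonoidClass.coe_pow] at this
  rw [SubmonoidClass.coe_pow]
  exact this

end CfsgLib.SchurCover
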